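import Mathlib
import Cfsg.Agent.Eq.Def_GeometricClasses
import Cfsg.Agent.Aschbacher.Density
import Cfsg.Agent.Aschbacher.Reduction

/-!
Two general facts for dimension four: a transvection never normalises an absolutely irreducible group
that is commutative modulo scalars, and subgroups of index two of absolutely irreducible groups.
-/

set_option autoImplicit false
set_option linter.unusedSectionVars false

namespace CfsgLib.AschFour

open Matrix Module CfsgLib.Aschbacher CfsgLib.Aschbacher.Reduction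

open scoped Kronecker

variable {ι : Type} [Fintype ι] [DecidableEq ι] {F : Type*} [Field F]

local notation "GLm" => Matrix.GeneralLinearGroup

/-- In dimension four a non-trivial transvection does not normalise an absolutely irreducible group
whose commutators are scalar. -/
theorem transvection_not_normalises [Finite F] (hn : Fintype.card ι = 4) {R : Subgroup (GLm ι F)}
    (habs : Cfsg.Geo.ActsAbsolutelyIrreducibly (Cfsg.Geo.matrixSet R))
    (hcomm : ∀ x ∈ R, ∀ y ∈ R, x * y * x⁻¹ * y⁻¹ ∈ Cfsg.Geo.scalars ι F)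
    {T : GLm ι F} {v : ι → F} {φ : (ι → F) →ₗ[F] F} (hv : v ≠ 0) (hφ : φ ≠ 0) (hφv : φ v = 0)
    (hT : ∀ w, T.val *ᵥ w = w + φ w • v) :
    T ∉ Cfsg.Geo.subgroupNormalizer R := by
  haveI : Nonempty ι := Fintype.card_pos_iff.1 (by omega)
  intro hTn
  rw [Cfsg.Geo.subgroupNormalizer, Subgroup.mem_normalizer_iff] at hTn
  -- an element of the group moving the centre of the transvection
  obtain ⟨x, hx, hxv⟩ : ∃ x ∈ R, x.val *ᵥ v ∉ Submodule.span F {v} := by
    by_contra! hall
    rcases habs.1 (Submodule.span F {v}) (by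
      rintro _ ⟨g, hg, rfl⟩
      rw [Submodule.map_span, Set.image_singleton, Submodule.span_singleton_le_iff_mem,
        Matrix.toLin'_apply]
      exact hall g hg) with h | h
    · exact hv (Submodule.span_singleton_eq_bot.1 h)
    · have h1 : finrank F (Submodule.span F {v}) = 1 := finrank_span_singleton hv
      rw [h, finrank_top, Module.finrank_pi, hn] at h1
      norm_num at h1
  set v' := x.val *ᵥ v with hv'
  set ψ : (ι → F) →ₗ[F] F := φ.comp (Matrix.toLin' (x⁻¹ : GLm ι F).val) with hψdef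
  have hψ : ∀ w, ψ w = φ ((x⁻¹ : GLm ι F).val *ᵥ w) := fun w => rfl
  have hTi : ∀ w, (T⁻¹ : GLm ι F).val *ᵥ w = w - φ w • v := fun w => by
    apply mulVec_inj T
    show T.val *ᵥ ((T⁻¹ : GLm ι F).val *ᵥ w) = T.val *ᵥ (w - φ w • v)
    rw [mulVec_inv_mulVec, mulVec_sub, mulVec_smul, hT w, hT v, hφv, zero_smul, add_zero,
      add_sub_cancel_right]
  set y := T * x * T⁻¹ * x⁻¹ with hy
  have hyR : y ∈ R := mul_mem ((hTn x).1 hx) (inv_mem hx)
  set N : (ι → F) → (ι → F) := fun w => (φ w - ψ w * φ v') • v - ψ w • v' with hNdef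
  have hyw : ∀ w, y.val *ᵥ w = w + N w := fun w => by
    simp only [hy, hNdef, Units.val_mul, ← mulVec_mulVec, hTi, mulVec_sub, mulVec_smul,
      mulVec_inv_mulVec, ← hψ, ← hv', hT]
    module
  have hψv' : ψ v' = 0 := by rw [hψ, hv', inv_mulVec_mulVec, hφv]
  have hindep : ∀ a b : F, a • v + b • v' = 0 → a = 0 ∧ b = 0 := by
    intro a b h
    by_cases hb : b = 0
    · subst hb
      rw [zero_smul, add_zero, smul_eq_zero] at h
      exact ⟨h.resolve_right hv, rfl⟩
    · exfalso
      refine hxv (Submodule.mem_span_singleton.2 ⟨-(b⁻¹ * a), ?_⟩)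
      have h2 : b⁻¹ • (a • v + b • v') = 0 := by rw [h, smul_zero]
      rw [smul_add, smul_smul, smul_smul, inv_mul_cancel₀ hb, one_smul] at h2
      rw [neg_smul]
      exact neg_eq_of_add_eq_zero_right h2
  have hne : y ≠ 1 := by
    intro h1
    have hN0 : ∀ w, N w = 0 := fun w => by
      have := hyw w
      rw [h1, Units.val_one, one_mulVec] at this
      exact add_eq_left.1 this.symm
    refine hφ (LinearMap.ext fun w => ?_)
    obtain ⟨ha, hb⟩ := hindep (φ w - ψ w * φ v') (-ψ w) (by rw [neg_smul, ← sub_eq_add_neg]; exact hN0 w)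
    rw [neg_eq_zero] at hb
    rw [hb, zero_mul, sub_zero] at ha
    simpa using ha
  -- the fixed space
  let Φ : (ι → F) →ₗ[F] F × F := φ.prod ψ
  let W := LinearMap.ker Φ
  have hW : 2 ≤ finrank F W := by
    have h1 : finrank F (LinearMap.range Φ) + finrank F W = _ :=
      LinearMap.finrank_range_add_finrank_ker Φ
    have h2 := Submodule.finrank_le (LinearMap.range Φ)
    rw [Module.finrank_prod, Module.finrank_self] at h2
    rw [Module.finrank_pi, hn] at h1
    omega
  have hfix : ∀ w ∈ W, y.val *ᵥ w = w := fun w hw => by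
    have hw' := LinearMap.mem_ker.1 hw
    have h1 : φ w = 0 := congrArg Prod.fst hw'
    have h2 : ψ w = 0 := congrArg Prod.snd hw'
    rw [hyw]; simp [hNdef, h1, h2]
  obtain ⟨w₀, hw₀, hw₀'⟩ := W.exists_mem_ne_zero_of_ne_bot fun h => by
    rw [h, finrank_bot] at hW; omega
  have hns : y ∉ Cfsg.Geo.scalars ι F := by
    intro hs
    obtain ⟨c, hc⟩ := (Cfsg.Geo.mem_scalars_iff y).1 hs
    have h1 := hfix w₀ hw₀
    rw [hc, smul_mulVec, one_mulVec] at h1
    have h2 : (c : F) = 1 := smul_left_injective F hw₀' (h1.trans (one_smul F w₀).symm)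
    exact hne (Units.ext (by rw [hc, h2, one_smul, Units.val_one]))
  obtain ⟨z, hz, hzy⟩ : ∃ z ∈ R, z * y ≠ y * z := by
    by_contra! h
    obtain ⟨c, hc⟩ := habs.2 y.val (by rintro _ ⟨z, hz, rfl⟩; exact congrArg Units.val (h z hz).symm)
    refine hns ((Cfsg.Geo.mem_scalars_iff y).2 ⟨Units.mk0 c fun h0 => ?_, hc⟩)
    exact y.isUnit.ne_zero (by rw [hc, h0, zero_smul])
  obtain ⟨ζ, hζ⟩ := (Cfsg.Geo.mem_scalars_iff _).1 (hcomm y hyR z hz)
  have hyz : y.val * z.val = (ζ : F) • (z.val * y.val) := by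
    have e : y * z = y * z * y⁻¹ * z⁻¹ * (z * y) := by simp [mul_assoc]
    have e' := congrArg Units.val e
    rw [Units.val_mul, Units.val_mul _ (z * y), hζ, Matrix.smul_mul, Matrix.one_mul,
      Units.val_mul] at e'
    exact e'
  have hζ1 : (ζ : F) ≠ 1 := fun h =>
    hzy (Units.ext (by rw [Units.val_mul z y, Units.val_mul y z, hyz, h, one_smul]))
  have hzfix : ∀ w ∈ W, y.val *ᵥ (z.val *ᵥ w) = (ζ : F) • (z.val *ᵥ w) := fun w hw => by
    rw [mulVec_mulVec, hyz, smul_mulVec, ← mulVec_mulVec, hfix w hw]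
  set W' := W.map (Matrix.toLin' z.val) with hW'
  have hdim : finrank F W' = finrank F W := finrank_map_gl z W
  have hdis : W ⊓ W' = ⊥ := by
    rw [Submodule.eq_bot_iff]
    rintro u ⟨hu, w, hw, rfl⟩
    rw [Matrix.toLin'_apply] at hu ⊢
    have h2 : ((ζ : F) - 1) • (z.val *ᵥ w) = 0 := by
      rw [sub_smul, one_smul, ← hzfix w hw, hfix _ hu, sub_self]
    exact (smul_eq_zero.1 h2).resolve_left (sub_ne_zero.2 hζ1)
  have htop : W ⊔ W' = ⊤ := by
    refine Submodule.eq_top_of_finrank_eq (le_antisymm (Submodule.finrank_le _) ?_)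
    have h1 := Submodule.finrank_sup_add_finrank_inf_eq W W'
    rw [hdis, finrank_bot, hdim] at h1
    rw [Module.finrank_pi, hn]
    omega
  have hquad : ∀ w, y.val *ᵥ (y.val *ᵥ w - w) = (ζ : F) • (y.val *ᵥ w - w) := by
    intro w
    obtain ⟨a, ha, b, ⟨c, hc, rfl⟩, rfl⟩ := Submodule.mem_sup.1 (htop ▸ Submodule.mem_top (x := w))
    simp only [Matrix.toLin'_apply, mulVec_add, mulVec_sub, mulVec_smul, hfix a ha, hzfix c hc,
      smul_sub, smul_add]
    module
  set a := φ v' with ha'
  set b := ψ v with hb'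
  have hNv : N v = (-(b * a)) • v + (-b) • v' := by
    simp only [hNdef, hφv, ← ha', ← hb']; module
  have hNv' : N v' = a • v := by simp [hNdef, hψv', ← ha']
  have hyv : y.val *ᵥ v = (1 - b * a) • v + (-b) • v' := by rw [hyw, hNv]; module
  have hyv' : y.val *ᵥ v' = a • v + (1 : F) • v' := by rw [hyw, hNv']; module
  have e1 := hquad v
  rw [hyw v, add_sub_cancel_left, hNv, mulVec_add, mulVec_smul, mulVec_smul, hyv, hyv'] at e1
  obtain ⟨e1a, e1b⟩ := hindep ((-(b * a)) * (1 - b * a) + (-b) * a - (ζ : F) * (-(b * a)))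
    ((-(b * a)) * (-b) + (-b) - (ζ : F) * (-b)) (by linear_combination (norm := module) e1)
  have e2 := hquad v'
  rw [hyw v', add_sub_cancel_left, hNv', mulVec_smul, hyv] at e2
  obtain ⟨e2a, -⟩ := hindep (a * (1 - b * a) - (ζ : F) * a) (a * (-b))
    (by linear_combination (norm := module) e2)
  have hb0 : b = 0 := by
    by_contra hb
    have h1 : b * a = 1 - (ζ : F) := by
      have h' : b * (b * a - (1 - (ζ : F))) = 0 := by linear_combination e1b
      exact sub_eq_zero.1 ((mul_eq_zero.1 h').resolve_left hb)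
    have h2 : b * a = 0 := by linear_combination (-1 : F) * e1a + (b * a) * h1
    exact hζ1 (by rw [h2] at h1; linear_combination h1)
  have ha0 : a = 0 := by
    rw [hb0] at e2a
    exact (mul_eq_zero.1 (show a * (1 - (ζ : F)) = 0 by linear_combination e2a)).resolve_right
      (sub_ne_zero.2 (Ne.symm hζ1))
  refine hne (Units.ext (Matrix.toLin'.injective (LinearMap.ext fun w => ?_)))
  have e := hquad w
  have hNN : y.val *ᵥ N w = N w := by
    simp only [hNdef, mulVec_sub, mulVec_smul, hyv, hyv', hb0, ha0]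
    module
  rw [hyw w, add_sub_cancel_left, hNN] at e
  have hN : N w = 0 := by
    have h2 : ((ζ : F) - 1) • N w = 0 := by rw [sub_smul, one_smul, ← e, sub_self]
    exact (smul_eq_zero.1 h2).resolve_left (sub_ne_zero.2 hζ1)
  simp [hyw w, hN]

/-- No isometry group containing a transvection normalises such a group. -/
theorem not_le_subgroupNormalizer [Finite F] (hn : Fintype.card ι = 4) {R I : Subgroup (GLm ι F)}
    (habs : Cfsg.Geo.ActsAbsolutelyIrreducibly (Cfsg.Geo.matrixSet R))
    (hcomm : ∀ x ∈ R, ∀ y ∈ R, x * y * x⁻¹ * y⁻¹ ∈ Cfsg.Geo.scalars ι F)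
    {T : GLm ι F} (hTI : T ∈ I) {v : ι → F} {φ : (ι → F) →ₗ[F] F} (hv : v ≠ 0) (hφ : φ ≠ 0)
    (hφv : φ v = 0) (hT : ∀ w, T.val *ᵥ w = w + φ w • v) :
    ¬ I ≤ Cfsg.Geo.subgroupNormalizer R := fun h =>
  transvection_not_normalises hn habs hcomm hv hφ hφv hT (h hTI)

/-- A subgroup whose two translates cover an absolutely irreducible group spans at least half of the
matrices. -/
theorem finrank_algOf_ge [Finite F] [Nonempty ι] {N P : Subgroup (GLm ι F)}
    (hN : Cfsg.Geo.ActsAbsolutelyIrreducibly (Cfsg.Geo.matrixSet N)) {g : GLm ι F}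
    (hcov : ∀ x ∈ N, x ∈ P ∨ g⁻¹ * x ∈ P) :
    Fintype.card ι * Fintype.card ι ≤ 2 * finrank F (algOf P) := by
  set A := Subalgebra.toSubmodule (algOf P)
  set gA := A.map (LinearMap.mulLeft F g.val)
  have hle : Submodule.span F (Cfsg.Geo.matrixSet N) ≤ A ⊔ gA := by
    rw [Submodule.span_le]
    rintro _ ⟨x, hx, rfl⟩
    rcases hcov x hx with h | h
    · exact Submodule.mem_sup_left (Algebra.subset_adjoin ⟨x, h, rfl⟩)
    · refine Submodule.mem_sup_right ⟨(g⁻¹ * x).val, Algebra.subset_adjoin ⟨_, h, rfl⟩, ?_⟩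
      show g.val * (g⁻¹ * x).val = x.val
      rw [← Units.val_mul, mul_inv_cancel_left]
  rw [span_matrixSet_eq_top hN] at hle
  have h1 := Submodule.finrank_mono hle
  have h2 := Submodule.finrank_add_le_finrank_add_finrank A gA
  have h3 : finrank F gA ≤ finrank F A := Submodule.finrank_map_le _ _
  have h4 : finrank F A = finrank F (algOf P) := rfl
  rw [finrank_top, Module.finrank_matrix, Module.finrank_self, mul_one] at h1
  omega

/-- A scalar group spans a line. -/
theorem finrank_algOf_scalar [Nonempty ι] {P : Subgroup (GLm ι F)}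
    (hP : P ≤ Cfsg.Geo.scalars ι F) : finrank F (algOf P) = 1 := by
  have h : algOf P = ⊥ := by
    refine le_bot_iff.1 (Algebra.adjoin_le ?_)
    rintro _ ⟨x, hx, rfl⟩
    obtain ⟨c, hc⟩ := (Cfsg.Geo.mem_scalars_iff x).1 (hP hx)
    exact Algebra.mem_bot.2 ⟨c, by rw [Algebra.algebraMap_eq_smul_one]; exact hc.symm⟩
  rw [h, Subalgebra.finrank_bot]

/-- The algebra of a tensor factor is small. -/
theorem finrank_algOf_tensor [Fintype F] [Nonempty ι] {P : Subgroup (GLm ι F)} {d k : ℕ} {e : ι ≃ Fin d × Fin k}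
    {B : GLm ι F} (hmem : ∀ X, X ∈ algOf P ↔
      ∃ Y, X = CfsgLib.Aschbacher.tconj e B (Y ⊗ₖ (1 : Matrix (Fin k) (Fin k) F))) :
    finrank F (algOf P) ≤ d * d := by
  let L : Matrix (Fin d) (Fin d) F →ₗ[F] Matrix ι ι F :=
    { toFun := fun Y => CfsgLib.Aschbacher.tconj e B (Y ⊗ₖ (1 : Matrix (Fin k) (Fin k) F))
      map_add' := fun X Y => by rw [Matrix.add_kronecker, map_add]
      map_smul' := fun c X => by rw [Matrix.smul_kronecker, map_smul]; rfl }
  have hle : Subalgebra.toSubmodule (algOf P) ≤ LinearMap.range L := fun X hX => by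
    obtain ⟨Y, hY⟩ := (hmem X).1 hX
    exact ⟨Y, hY.symm⟩
  refine (Submodule.finrank_mono hle).trans ((LinearMap.finrank_range_le L).trans ?_)
  simp [Module.finrank_matrix]

end CfsgLib.AschFour
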