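import Mathlib
import Cfsg.Agent.Eq.Def_GeometricClasses
import Cfsg.Agent.AschFour.Common
import Cfsg.Agent.Aschbacher.SympComposite
import Cfsg.Agent.Aschbacher.SymplecticType

/-!
Facts for the symplectic group in dimension four: properness of orthogonal groups, commutative
algebras from a second form, and the symplectic-type group of an abelian configuration.
-/

set_option autoImplicit false
set_option linter.unusedSectionVars false

namespace CfsgLib.AschFour

open Matrix Cfsg Module CfsgLib.Aschbacher CfsgLib.Aschbacher.Centre CfsgLib.Aschbacher.Forms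
  CfsgLib.Aschbacher.Reduction CfsgLib.AltFormTransv CfsgLib.Aschbacher.Symp

variable {ι : Type} [Fintype ι] [DecidableEq ι] {F : Type*} [Field F] [Fintype F]
variable {f : (ι → F) → (ι → F) → F} {I H : Subgroup (GL ι F)}

/-- No orthogonal group contains all transvections in dimension at least four. -/
theorem not_le_quadSimilarityGroup (hf : Geo.IsSymplecticForm f) (hI : ∀ v c, sympT hf v c ∈ I)
    (hn : 4 ≤ Fintype.card ι) {Q : (ι → F) → F} (hQ : Geo.IsNondegenerateQuadraticForm Q)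
    (hpol : ∀ u v, QuadraticMap.polar Q u v = f u v) : ¬ I ≤ Geo.quadSimilarityGroup Q := by
  haveI : Nonempty ι := Fintype.card_pos_iff.1 (by omega)
  intro hle
  have hQadd : ∀ u v, Q (u + v) = Q u + Q v + f u v := fun u v => by
    rw [← hpol]; simp [QuadraticMap.polar]
  have key : ∀ a, a ≠ 0 → Q a = -1 := by
    intro a ha
    obtain ⟨b, hb⟩ := (hf.nondegenerate a ha).2
    have hb' : f b a ≠ 0 := fun h => hb (orth_comm hf h)
    let L : (ι → F) →ₗ[F] F × F := (pair hf a).prod (pair hf b)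
    obtain ⟨z, hz, hz0⟩ := Submodule.exists_mem_ne_zero_of_ne_bot (p := LinearMap.ker L) fun h => by
      have := LinearMap.finrank_le_finrank_of_injective (LinearMap.ker_eq_bot.1 h)
      simp at this
      omega
    have hz' : L z = 0 := hz
    have hza : f z a = 0 := by simpa [L] using congrArg Prod.fst hz'
    have hzb : f z b = 0 := by simpa [L] using congrArg Prod.snd hz'
    obtain ⟨v, hva, hvQ⟩ : ∃ v, f v a = 0 ∧ Q v ≠ 0 := by
      obtain ⟨w, hw⟩ := (hf.nondegenerate z hz0).2
      set w' := w + (-(f w a / f b a)) • b with hw'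
      have h1 : f w' a = 0 := by
        rw [hw', hf.bilinear.add_left, hf.bilinear.smul_left]; field_simp; ring
      have h2 : f z w' ≠ 0 := by
        rw [hw', hf.bilinear.add_right, hf.bilinear.smul_right, hzb, mul_zero, add_zero]; exact hw
      by_cases hQz : Q z = 0
      · by_cases hQw : Q w' = 0
        · refine ⟨z + w', by rw [hf.bilinear.add_left, hza, h1, add_zero], ?_⟩
          rw [hQadd, hQz, hQw, zero_add, zero_add]; exact h2
        · exact ⟨w', h1, hQw⟩
      · exact ⟨z, hza, hQz⟩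
    obtain ⟨c, hc⟩ := hle (hI a 1)
    have hc1 : (c : F) = 1 := by
      have := hc v
      rw [sympT_mulVec, hva, mul_zero, zero_smul, add_zero] at this
      exact (mul_left_eq_self₀.1 this.symm).resolve_right hvQ
    have h := hc b
    rw [hc1, one_mul, sympT_mulVec, one_mul, hQadd, hQ.smul, hf.bilinear.smul_right] at h
    have h' : f b a ^ 2 * (Q a + 1) = 0 := by linear_combination h
    exact eq_neg_of_add_eq_zero_left ((mul_eq_zero.1 h').resolve_left (pow_ne_zero 2 hb'))
  obtain ⟨a, -, haz⟩ := exists_orth_not_mem hf (∅ : Finset (ι → F)) (by simp; omega)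
  have ha : a ≠ 0 := fun h => haz (h ▸ zero_mem _)
  obtain ⟨z, hz, hzs⟩ := exists_orth_not_mem hf {a} (by simp; omega)
  simp only [Finset.coe_singleton] at hzs
  have hz0 : z ≠ 0 := fun h => hzs (h ▸ zero_mem _)
  have haz' : z + a ≠ 0 := fun h => hzs (by
    rw [add_eq_zero_iff_eq_neg.1 h]
    exact Submodule.neg_mem _ (Submodule.mem_span_singleton_self a))
  have h := key _ haz'
  rw [hQadd, key a ha, key z hz0, hz a (by simp), add_zero] at h
  simp at h

/-- A group of isometries that also preserves a quadratic form up to scalars either normalises a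
closed commutative algebra larger than the scalars, or, in characteristic two, is orthogonal. -/
theorem twist_cases (hf : Geo.IsSymplecticForm f) [Nonempty ι] (hiso : ∀ g ∈ H,
      ∀ u v, f ((g : Matrix ι ι F) *ᵥ u) ((g : Matrix ι ι F) *ᵥ v) = f u v)
    {Q : (ι → F) → F} (hQ : Geo.IsNondegenerateQuadraticForm Q)
    (hle : H ≤ Geo.quadSimilarityGroup Q) :
    (∃ Z : Subalgebra F (Matrix ι ι F), (∀ x ∈ Z, ∀ y ∈ Z, x * y = y * x) ∧ Closed f Z ∧
      Normalises H Z ∧ Z ≠ ⊥) ∨
    (¬ Odd (Fintype.card F) ∧ ∃ Q' : (ι → F) → F, Geo.IsNondegenerateQuadraticForm Q' ∧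
      (∀ u v, QuadraticMap.polar Q' u v = f u v) ∧ H ≤ Geo.quadSimilarityGroup Q') := by
  classical
  have hr := rform_of_symplectic hf
  obtain ⟨B, hB⟩ : ∃ B, B = QuadraticMap.polar Q := ⟨_, rfl⟩
  have hBb : Geo.IsBilinearForm B := hB ▸ hQ.polar_bilinear
  have hBc : ∀ u v, B u v = B v u := fun u v => by rw [hB, QuadraticMap.polar_comm]
  -- the operator comparing the two forms
  let Bl : (ι → F) → Module.Dual F (ι → F) := fun v =>
    { toFun := fun u => B u v, map_add' := fun x y => hBb.add_left x y v,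
      map_smul' := fun c x => by simp [hBb.smul_left] }
  choose t ht using fun v => exists_pair_eq hf (Bl v)
  have ht' : ∀ v u, f u (t v) = B u v := fun v u => by
    have h := congrArg (fun φ : Module.Dual F (ι → F) => φ u) (ht v)
    simpa [Bl] using h
  have huniq : ∀ {x y : ι → F}, (∀ u, f u x = f u y) → x = y := fun h => hr.ext_right h
  let Tl : (ι → F) →ₗ[F] (ι → F) :=
    { toFun := t
      map_add' := fun x y => huniq fun u => by
        rw [ht', hf.bilinear.add_right, ht', ht', hBb.add_right]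
      map_smul' := fun c x => huniq fun u => by
        rw [RingHom.id_apply, ht', hf.bilinear.smul_right, ht', hBb.smul_right] }
  set T := LinearMap.toMatrix' Tl with hT
  have hTv : ∀ v u, f u (T *ᵥ v) = B u v := fun v u => by
    rw [hT, ← Matrix.toLin'_apply, Matrix.toLin'_toMatrix']; exact ht' v u
  have hadj : IsAdj f T (-T) := fun u v => by
    rw [hf.skew, hTv, neg_mulVec, ← neg_one_smul F (T *ᵥ v), hf.bilinear.smul_right, hTv, hBc]
    ring
  by_cases hTs : ∃ a : F, T = a • (1 : Matrix ι ι F)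
  · right
    obtain ⟨a, ha⟩ := hTs
    have hBf : ∀ u v, B u v = a * f u v := fun u v => by
      rw [← hTv, ha, smul_mulVec, one_mulVec, hf.bilinear.smul_right]
    obtain ⟨v₀, w₀, hvw⟩ := IsNondegenerateForm.exists_ne Fintype.card_pos (hB ▸ hQ.nondegenerate :
      Geo.IsNondegenerateForm B)
    have ha0 : a ≠ 0 := fun h => hvw (by rw [hBf, h, zero_mul])
    have hodd : ¬ Odd (Fintype.card F) := fun ho => by
      have h2 := two_ne_zero_of_odd_card ho
      have h : B v₀ w₀ = - B v₀ w₀ := by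
        conv_rhs => rw [hBc, hBf, hf.skew, mul_neg, neg_neg, ← hBf]
      exact hvw ((mul_eq_zero.1 (show (2 : F) * B v₀ w₀ = 0 by linear_combination h)).resolve_left h2)
    have hfun : QuadraticMap.polar (fun v => a⁻¹ * Q v) = f := funext₂ fun u v => by
      have h := hBf u v
      simp only [hB, QuadraticMap.polar] at h ⊢
      rw [← mul_sub, ← mul_sub, h, inv_mul_cancel_left₀ ha0]
    refine ⟨hodd, fun v => a⁻¹ * Q v,
      ⟨fun c v => by rw [hQ.smul]; ring, hfun.symm ▸ hf.bilinear, hfun.symm ▸ hf.nondegenerate⟩,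
      fun u v => by rw [hfun], fun g hg => ?_⟩
    obtain ⟨c, hc⟩ := hle hg
    exact ⟨c, fun v => by show a⁻¹ * Q _ = _ * (a⁻¹ * Q v); rw [hc v]; ring⟩
  left
  have hconj : ∀ g ∈ H, ∃ c : F, (g : Matrix ι ι F) * T * ((g⁻¹ : GL ι F) : Matrix ι ι F) = c • T := by
    intro g hg
    obtain ⟨c, hc⟩ := hle (H.inv_mem hg)
    have hBg : ∀ u v, B ((g⁻¹ : GL ι F).val *ᵥ u) ((g⁻¹ : GL ι F).val *ᵥ v) = c * B u v := fun u v => by
      simp only [hB, QuadraticMap.polar, ← mulVec_add, hc]; ring
    refine ⟨c, Matrix.ext_iff_mulVec.2 fun v => huniq fun u => ?_⟩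
    rw [smul_mulVec, hf.bilinear.smul_right, hTv, ← hBg, ← mulVec_mulVec, ← mulVec_mulVec,
      ← hiso g⁻¹ (H.inv_mem hg), inv_mulVec_mulVec, hTv]
  refine ⟨Algebra.adjoin F {T}, ?_, ?_, ?_, fun h => hTs ?_⟩
  · intro x hx y hy
    exact congrArg Subtype.val (mul_comm (⟨x, hx⟩ : Algebra.adjoin F {T}) ⟨y, hy⟩)
  · intro X hX
    induction hX using Algebra.adjoin_induction with
    | mem x hx =>
      obtain rfl : x = T := hx
      exact ⟨-T, neg_mem (Algebra.self_mem_adjoin_singleton F T), hadj⟩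
    | algebraMap r =>
      exact ⟨algebraMap F _ r, Subalgebra.algebraMap_mem _ r, fun u v => by
        rw [Algebra.algebraMap_eq_smul_one, smul_mulVec, smul_mulVec, one_mulVec, one_mulVec,
          hf.bilinear.smul_left, hf.bilinear.smul_right]⟩
    | add x y _ _ hx hy =>
      obtain ⟨x', hx', ex⟩ := hx
      obtain ⟨y', hy', ey⟩ := hy
      exact ⟨x' + y', add_mem hx' hy', fun u v => by
        rw [add_mulVec, add_mulVec, hf.bilinear.add_left, hf.bilinear.add_right, ex, ey]⟩
    | mul x y _ _ hx hy =>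
      obtain ⟨x', hx', ex⟩ := hx
      obtain ⟨y', hy', ey⟩ := hy
      exact ⟨y' * x', mul_mem hy' hx', fun u v => by rw [← mulVec_mulVec, ex, ey, mulVec_mulVec]⟩
  · intro g hg X hX
    obtain ⟨c, hc⟩ := hconj g hg
    have hmem : CfsgLib.Aschbacher.conjAlg g X ∈
        (Algebra.adjoin F {T}).map (CfsgLib.Aschbacher.conjAlg g).toAlgHom := ⟨X, hX, rfl⟩
    rw [AlgHom.map_adjoin, Set.image_singleton] at hmem
    have hle' : Algebra.adjoin F {(CfsgLib.Aschbacher.conjAlg g).toAlgHom T} ≤ Algebra.adjoin F {T} :=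
      Algebra.adjoin_le (Set.singleton_subset_iff.2 (by
        rw [show (CfsgLib.Aschbacher.conjAlg g).toAlgHom T = c • T by
          simpa [CfsgLib.Aschbacher.conjAlg_apply] using hc]
        exact Subalgebra.smul_mem _ (Algebra.self_mem_adjoin_singleton F T) c))
    simpa [CfsgLib.Aschbacher.conjAlg_apply] using hle' hmem
  · obtain ⟨a, ha⟩ := Algebra.mem_bot.1 (h ▸ Algebra.self_mem_adjoin_singleton F T)
    exact ⟨a, by rw [← ha, Algebra.algebraMap_eq_smul_one]⟩

/-- Commuting isometric involutions in dimension four, in odd characteristic. -/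
theorem involution_dichotomy (hf : Geo.IsSymplecticForm f) (hn : Fintype.card ι = 4) (h2 : (2 : F) ≠ 0)
    {x y : Matrix ι ι F} (hx : x * x = 1) (hy : y * y = 1) (hxy : x * y = y * x)
    (hxi : ∀ u v, f (x *ᵥ u) (x *ᵥ v) = f u v) (hyi : ∀ u v, f (y *ᵥ u) (y *ᵥ v) = f u v)
    (hx1 : x ≠ 1) (hxn : x ≠ -1) : y = 1 ∨ y = -1 ∨ y = x ∨ y = -x := by
  haveI : Nonempty ι := Fintype.card_pos_iff.1 (by omega)
  let P : F → Submodule F (ι → F) := fun s => LinearMap.ker (Matrix.toLin' (x - s • 1))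
  have hP : ∀ s v, v ∈ P s ↔ x *ᵥ v = s • v := fun s v => by
    simp [P, sub_mulVec, smul_mulVec, sub_eq_zero]
  have hpm : ∀ {s : F}, s = 1 ∨ s = -1 → s * s = 1 := by rintro s (rfl | rfl) <;> ring
  -- each eigenspace is a non-degenerate plane
  have hxx : ∀ v, x *ᵥ (x *ᵥ v) = v := fun v => by rw [mulVec_mulVec, hx, one_mulVec]
  have hsplit : ∀ v, ∃ a ∈ P 1, ∃ b ∈ P (-1), v = a + b := fun v =>
    ⟨(2 : F)⁻¹ • (v + x *ᵥ v), (hP _ _).2 (by rw [mulVec_smul, mulVec_add, hxx, one_smul, add_comm]),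
      (2 : F)⁻¹ • (v - x *ᵥ v), (hP _ _).2 (by rw [mulVec_smul, mulVec_sub, hxx]; module), by
      match_scalars <;> field_simp <;> norm_num⟩
  have horth : ∀ a ∈ P 1, ∀ b ∈ P (-1), f a b = 0 := fun a ha b hb => by
    have h := hxi a b
    rw [(hP _ _).1 ha, (hP _ _).1 hb, hf.bilinear.smul_left, hf.bilinear.smul_right] at h
    exact (mul_eq_zero.1 (show (2 : F) * f a b = 0 by linear_combination -h)).resolve_left h2
  have hnd : ∀ s : F, s = 1 ∨ s = -1 → Geo.IsNondegenerateOn f (P s) := by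
    intro s hs w hw hw0
    obtain ⟨z, hz⟩ := (hf.nondegenerate w hw0).1
    obtain ⟨a, ha, b, hb, rfl⟩ := hsplit z
    rw [hf.bilinear.add_left] at hz
    rcases hs with rfl | rfl
    · have hb0 : f b w = 0 := orth_comm hf (horth w hw b hb)
      rw [hb0, add_zero] at hz
      exact ⟨⟨a, ha, hz⟩, ⟨a, ha, fun h => hz (orth_comm hf h)⟩⟩
    · rw [horth a ha w hw, zero_add] at hz
      exact ⟨⟨b, hb, hz⟩, ⟨b, hb, fun h => hz (orth_comm hf h)⟩⟩
  have hne : ∀ s : F, s = 1 ∨ s = -1 → P s ≠ ⊥ := by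
    intro s hs hbot
    have hall : ∀ v, x *ᵥ v = (-s) • v := fun v => by
      obtain ⟨a, ha, b, hb, rfl⟩ := hsplit v
      rcases hs with rfl | rfl
      · rw [(Submodule.eq_bot_iff _).1 hbot a ha, zero_add, (hP _ _).1 hb]
      · rw [(Submodule.eq_bot_iff _).1 hbot b hb, add_zero, (hP _ _).1 ha, neg_neg]
    rcases hs with rfl | rfl
    · exact hxn (Matrix.ext_iff_mulVec.2 fun v => by rw [hall, neg_mulVec, one_mulVec, neg_smul, one_smul])
    · exact hx1 (Matrix.ext_iff_mulVec.2 fun v => by rw [hall, neg_neg, one_smul, one_mulVec])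
  have hdim : finrank F (P 1) + finrank F (P (-1)) = 4 := by
    have hdis : P 1 ⊓ P (-1) = ⊥ := (Submodule.eq_bot_iff _).2 fun v hv => by
      have h := ((hP _ _).1 hv.1).symm.trans ((hP _ _).1 hv.2)
      rw [one_smul, neg_smul, one_smul, eq_neg_iff_add_eq_zero, ← two_smul F] at h
      exact (smul_eq_zero.1 h).resolve_left h2
    have htop : P 1 ⊔ P (-1) = ⊤ := eq_top_iff.2 fun v _ => by
      obtain ⟨a, ha, b, hb, rfl⟩ := hsplit v
      exact Submodule.add_mem_sup ha hb
    have h := Submodule.finrank_sup_add_finrank_inf_eq (P 1) (P (-1))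
    rw [hdis, htop, finrank_bot, add_zero, finrank_top, Module.finrank_pi, hn] at h
    exact h.symm
  have htwo : ∀ s : F, s = 1 ∨ s = -1 → finrank F (P s) = 2 := by
    intro s hs
    obtain ⟨k, hk⟩ := even_finrank hf (hnd 1 (Or.inl rfl))
    obtain ⟨l, hl⟩ := even_finrank hf (hnd (-1) (Or.inr rfl))
    have h1 := mt Submodule.finrank_eq_zero.1 (hne 1 (Or.inl rfl))
    have h2' := mt Submodule.finrank_eq_zero.1 (hne (-1) (Or.inr rfl))
    rcases hs with rfl | rfl <;> omega
  -- on each plane the second involution is a sign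
  have hsign : ∀ s : F, s = 1 ∨ s = -1 → ∃ ε : F, (ε = 1 ∨ ε = -1) ∧ ∀ w ∈ P s, y *ᵥ w = ε • w := by
    intro s hs
    have hyP : ∀ w ∈ P s, y *ᵥ w ∈ P s := fun w hw => (hP _ _).2 (by
      rw [mulVec_mulVec, hxy, ← mulVec_mulVec, (hP _ _).1 hw, mulVec_smul])
    have hyy : ∀ v, y *ᵥ (y *ᵥ v) = v := fun v => by rw [mulVec_mulVec, hy, one_mulVec]
    by_contra! hcon
    obtain ⟨w₁, hw₁, hne₁⟩ := hcon 1 (Or.inl rfl)
    obtain ⟨w₂, hw₂, hne₂⟩ := hcon (-1) (Or.inr rfl)
    set a := w₂ + y *ᵥ w₂ with ha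
    set b := w₁ - y *ᵥ w₁ with hb
    have haP : a ∈ P s := add_mem hw₂ (hyP _ hw₂)
    have hbP : b ∈ P s := sub_mem hw₁ (hyP _ hw₁)
    have ha0 : a ≠ 0 := fun h => hne₂ (by rw [neg_one_smul]; exact eq_neg_of_add_eq_zero_right h)
    have hb0 : b ≠ 0 := fun h => hne₁ (by rw [one_smul]; exact (sub_eq_zero.1 h).symm)
    have hya : y *ᵥ a = a := by rw [ha, mulVec_add, hyy, add_comm]
    have hyb : y *ᵥ b = -b := by rw [hb, mulVec_sub, hyy, neg_sub]
    have hab : f b a = 0 := by
      have h := hyi b a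
      rw [hya, hyb, ← neg_one_smul F b, hf.bilinear.smul_left] at h
      exact (mul_eq_zero.1 (show (2 : F) * f b a = 0 by linear_combination -h)).resolve_left h2
    have hli : LinearIndependent F ![a, b] := by
      rw [LinearIndependent.pair_iff' ha0]
      intro c hc
      have h := congrArg (y *ᵥ ·) hc
      simp only [mulVec_smul, hya, hyb] at h
      rw [hc] at h
      exact hb0 ((smul_eq_zero.1 (show (2 : F) • b = 0 by
        rw [two_smul]; exact eq_neg_iff_add_eq_zero.1 h)).resolve_left h2)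
    have hspan : Submodule.span F (Set.range ![a, b]) = P s := by
      refine Submodule.eq_of_le_of_finrank_eq (Submodule.span_le.2 ?_) ?_
      · rintro _ ⟨j, rfl⟩; fin_cases j
        · exact haP
        · exact hbP
      · rw [finrank_span_eq_card hli, htwo s hs, Fintype.card_fin]
    obtain ⟨⟨z, hz, hza⟩, -⟩ := hnd s hs a haP ha0
    have hker : Submodule.span F (Set.range ![a, b]) ≤ LinearMap.ker (pair hf a) := by
      refine Submodule.span_le.2 ?_
      rintro _ ⟨j, rfl⟩; fin_cases j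
      · exact hf.alternating a
      · exact hab
    exact hza (hker (hspan ▸ hz))
  obtain ⟨ε, hε, hεw⟩ := hsign 1 (Or.inl rfl)
  obtain ⟨δ, hδ, hδw⟩ := hsign (-1) (Or.inr rfl)
  have hval : ∀ a ∈ P 1, ∀ b ∈ P (-1), y *ᵥ (a + b) = ε • a + δ • b := fun a ha b hb => by
    rw [mulVec_add, hεw a ha, hδw b hb]
  have hxval : ∀ a ∈ P 1, ∀ b ∈ P (-1), x *ᵥ (a + b) = a - b := fun a ha b hb => by
    rw [mulVec_add, (hP _ _).1 ha, (hP _ _).1 hb]; module
  rcases hε with rfl | rfl <;> rcases hδ with rfl | rfl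
  · exact Or.inl (Matrix.ext_iff_mulVec.2 fun v => by
      obtain ⟨a, ha, b, hb, rfl⟩ := hsplit v
      rw [hval a ha b hb, one_mulVec]; module)
  · exact Or.inr (Or.inr (Or.inl (Matrix.ext_iff_mulVec.2 fun v => by
      obtain ⟨a, ha, b, hb, rfl⟩ := hsplit v
      rw [hval a ha b hb, hxval a ha b hb]; module)))
  · exact Or.inr (Or.inr (Or.inr (Matrix.ext_iff_mulVec.2 fun v => by
      obtain ⟨a, ha, b, hb, rfl⟩ := hsplit v
      rw [hval a ha b hb, neg_mulVec, hxval a ha b hb]; module)))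
  · exact Or.inr (Or.inl (Matrix.ext_iff_mulVec.2 fun v => by
      obtain ⟨a, ha, b, hb, rfl⟩ := hsplit v
      rw [hval a ha b hb, neg_mulVec, one_mulVec]; module))

/-- The abelian configuration for isometries: characteristic not two. -/
theorem abelian_two_ne (hn : Fintype.card ι = 4) {N : Subgroup (GL ι F)} {r : ℕ}
    (h : AbelianData H N r) : (2 : F) ≠ 0 ∧ r = 2 := by
  haveI : Nonempty ι := Fintype.card_pos_iff.1 (by omega)
  obtain ⟨j, hj, hnj⟩ := abelianData_isPrimePow (by omega) h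
  obtain rfl : r = 2 := by
    have h1 : r ∣ 2 ^ 2 := by rw [show (2 : ℕ) ^ 2 = r ^ j from hn.symm.trans hnj]; exact dvd_pow_self r (by omega)
    exact (Nat.prime_dvd_prime_iff_eq h.prime Nat.prime_two).1 (h.prime.dvd_of_dvd_pow h1)
  refine ⟨fun h2 => ?_, rfl⟩
  obtain ⟨x, hx, y, hy, hxy⟩ := exists_not_commute (by omega) h.absIrred
  obtain ⟨z, hzs, he, hz⟩ := exists_sign_of_mem_sup (fun a ha b hb => h.comm b hb a ha) h.pow_mem
    (Subgroup.mem_sup_left hx) (Subgroup.mem_sup_left hy)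
  obtain ⟨c, rfl⟩ := id hzs
  change scalarGL c ^ 2 = 1 at hz
  rw [← scalarGL_pow] at hz
  have hc : c ^ 2 = 1 := scalarGL_injective (ι := ι) (hz.trans (map_one _).symm)
  have hc1 : (c : F) = 1 := by
    have h1 : (c : F) ^ 2 = 1 := by rw [← Units.val_pow_eq_pow_val, hc, Units.val_one]
    rcases sq_eq_one_iff.1 h1 with h' | h'
    · exact h'
    · rw [h']; linear_combination -h2
  rw [show c = 1 from Units.ext (hc1.trans Units.val_one.symm), map_one, one_mul] at he
  exact hxy he.symm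

/-- The abelian configuration for isometries is a symplectic-type group of minus type. -/
theorem abelian_symplecticType (hf : Geo.IsSymplecticForm f) (hn : Fintype.card ι = 4)
    (hiso : ∀ g ∈ H, ∀ u v, f ((g : Matrix ι ι F) *ᵥ u) ((g : Matrix ι ι F) *ᵥ v) = f u v)
    {N : Subgroup (GL ι F)} {r : ℕ} (h : AbelianData H N r) (hall : NormalsAbsIrred H) :
    (∀ c : Fˣ, scalarGL c ∈ N → c = 1 ∨ c = -1) ∧ Geo.IsSymplecticTypeGroup 2 N ∧
      Nat.card N = 32 ∧ Nat.card (Subgroup.center N) = 2 ∧ Geo.IsOfMinusType 2 N := by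
  classical
  haveI : Nonempty ι := Fintype.card_pos_iff.1 (by omega)
  obtain ⟨h2, rfl⟩ := abelian_two_ne hn h
  have hNiso : ∀ g ∈ N, ∀ u v, f ((g : Matrix ι ι F) *ᵥ u) ((g : Matrix ι ι F) *ᵥ v) = f u v :=
    fun g hg => hiso g (h.le hg)
  have hsc : ∀ c : Fˣ, scalarGL c ∈ N → c = 1 ∨ c = -1 := by
    intro c hc
    obtain ⟨v, w, hvw⟩ := IsNondegenerateForm.exists_ne Fintype.card_pos hf.nondegenerate
    have he := hNiso _ hc v w
    rw [scalarGL_val, smul_mulVec, smul_mulVec, one_mulVec, one_mulVec, hf.bilinear.smul_left,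
      hf.bilinear.smul_right, ← mul_assoc] at he
    rcases mul_self_eq_one_iff.1 ((mul_left_eq_self₀.1 he).resolve_right hvw) with h' | h'
    · exact Or.inl (Units.ext h')
    · exact Or.inr (Units.ext (by simpa using h'))
  have hmapN : ∀ (c : Fˣ) (g : GL ι F),
      (Units.map (Matrix.scalar ι : F →+* Matrix ι ι F).toMonoidHom) c = g → g ∈ N → scalarGL c ∈ N :=
    fun c g e hg => by subst e; exact hg
  have hne1 : (-1 : Fˣ) ≠ 1 := fun e => h2 (by
    have := congrArg Units.val e; simp at this; linear_combination -this)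
  -- a non-trivial commutator
  obtain ⟨x, hx, y, hy, hxy⟩ := exists_not_commute (by omega) h.absIrred
  have hneg : (scalarGL (-1) : GL ι F) ∈ N := by
    obtain ⟨c, hc⟩ := id (h.comm x hx y hy)
    have hcN : x * y * x⁻¹ * y⁻¹ ∈ N :=
      N.mul_mem (N.mul_mem (N.mul_mem hx hy) (N.inv_mem hx)) (N.inv_mem hy)
    rcases hsc c (hmapN c _ hc hcN) with rfl | rfl
    · refine absurd ?_ hxy
      have e : x * y * x⁻¹ * y⁻¹ = 1 := by rw [← hc]; exact map_one _
      calc x * y = x * y * x⁻¹ * y⁻¹ * (y * x) := by group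
        _ = y * x := by rw [e, one_mul]
    · exact hmapN _ _ hc hcN
  let Z := (Geo.scalars ι F).subgroupOf N
  have hZcard : Nat.card Z = 2 := by
    rw [Nat.card_eq_two_iff' (1 : Z)]
    refine ⟨⟨⟨_, hneg⟩, scalarGL_mem _⟩, fun e => hne1 (scalarGL_injective (ι := ι) ?_), ?_⟩
    · exact (congrArg (fun z : Z => (z.1.1 : GL ι F)) e).trans (map_one _).symm
    · rintro ⟨⟨z, hzN⟩, c, hc⟩ hz1
      rcases hsc c (hmapN c _ hc hzN) with rfl | rfl
      · exact absurd (Subtype.ext (Subtype.ext (hc.symm.trans (map_one _)))) hz1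
      · exact Subtype.ext (Subtype.ext hc.symm)
  have hcard : Nat.card N = 32 := by
    rw [Subgroup.card_eq_card_quotient_mul_card_subgroup Z, hZcard, h.card_eq, hn]; norm_num
  have hcenter : Subgroup.center N = Z := by
    ext ⟨g, hg⟩
    rw [Subgroup.mem_center_iff, Subgroup.mem_subgroupOf]
    refine ⟨fun hc => ?_, fun hs b => Subtype.ext ?_⟩
    · obtain ⟨c, hc⟩ := mem_scalars_of_commute h.absIrred (g := g) fun z hz =>
        (congrArg Subtype.val (hc ⟨z, hz⟩)).symm
      exact ⟨c, hc⟩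
    · exact (scalars_commute hs b.1).symm
  have hsq : ∀ g ∈ N, g ^ 2 = 1 ∨ g ^ 2 = scalarGL (-1) := by
    intro g hg
    obtain ⟨c, hc⟩ := h.pow_mem g hg
    rcases hsc c (hmapN c _ hc (N.pow_mem hg 2)) with rfl | rfl
    · exact Or.inl (hc.symm.trans (map_one _))
    · exact Or.inr hc.symm
  have hneg4 : (scalarGL (-1) : GL ι F) ^ 2 = 1 := by
    rw [← scalarGL_pow, neg_one_sq]; exact map_one _
  have hpow4 : ∀ g ∈ N, g ^ 4 = 1 := fun g hg => by
    rw [show (4 : ℕ) = 2 * 2 from rfl, pow_mul]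
    rcases hsq g hg with e | e <;> rw [e] <;> simp [hneg4]
  refine ⟨hsc, ⟨Nat.prime_two, IsPGroup.of_card (n := 5) (by rw [hcard]; norm_num), ?_, ?_⟩, hcard,
    by rw [hcenter, hZcard], ?_⟩
  · intro A hA hAc
    have hle : A.map N.subtype ≤ Geo.scalars ι F := by
      by_contra hns
      obtain ⟨a, ⟨a', ha', rfl⟩, b, ⟨b', hb', rfl⟩, hab⟩ := exists_not_commute (by omega)
        (hall _ ((Subgroup.map_subtype_le A).trans h.le) (by
          rintro g hg _ ⟨a, ha, rfl⟩
          let φ : N ≃* N :=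
            { toFun := fun z => ⟨g * z * g⁻¹, h.normal g hg z z.2⟩
              invFun := fun z => ⟨g⁻¹ * z * g, by simpa using h.normal g⁻¹ (H.inv_mem hg) z z.2⟩
              left_inv := fun z => Subtype.ext (by simp [mul_assoc])
              right_inv := fun z => Subtype.ext (by simp [mul_assoc])
              map_mul' := fun z w => Subtype.ext (by simp [mul_assoc]) }
          have := hA.fixed φ
          exact ⟨φ a, (by rw [← this] at ha; exact ha), rfl⟩) hns)
      exact hab (congrArg (fun z : A => ((z : N) : GL ι F)) (hAc.is_comm.comm ⟨a', ha'⟩ ⟨b', hb'⟩))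
    haveI : IsCyclic Z := isCyclic_of_prime_card (p := 2) hZcard
    have hAZ : A ≤ Z := fun a ha => hle ⟨a, ha, rfl⟩
    exact isCyclic_of_injective (Subgroup.inclusion hAZ) (Subgroup.inclusion_injective hAZ)
  · refine Nat.dvd_antisymm (Monoid.exponent_dvd_of_forall_pow_eq_one fun g => Subtype.ext (by
      simpa using hpow4 g g.2)) ?_
    obtain ⟨g, hg, hg2⟩ : ∃ g ∈ N, g ^ 2 ≠ 1 := by
      by_contra! hall2
      apply hxy
      have e1 := hall2 _ (N.mul_mem hx hy)
      have e2 := hall2 x hx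
      have e3 := hall2 y hy
      rw [sq] at e1 e2 e3
      calc x * y = (x * y)⁻¹ := (inv_eq_of_mul_eq_one_left e1).symm
        _ = y⁻¹ * x⁻¹ := _root_.mul_inv_rev x y
        _ = y * x := by rw [inv_eq_of_mul_eq_one_left e2, inv_eq_of_mul_eq_one_left e3]
    have ho : orderOf (⟨g, hg⟩ : N) = 4 := by
      rw [Subgroup.orderOf_mk]
      exact orderOf_eq_prime_pow (p := 2) (n := 1) (by simpa using hg2) (hpow4 g hg)
    show (2 * Nat.gcd 2 2) ∣ _
    rw [Nat.gcd_self]
    rw [show (2 : ℕ) * 2 = 4 from rfl, ← ho]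
    exact Monoid.order_dvd_exponent _
  · -- minus type
    intro A hAc hA2
    have hpair : ∀ a ∈ A, ∀ b ∈ A, (a : GL ι F).val ≠ 1 → (a : GL ι F).val ≠ -1 →
        (b : GL ι F).val ∈ ({1, -1, (a : GL ι F).val, -(a : GL ι F).val} : Finset (Matrix ι ι F)) := by
      intro a ha b hb h1 hn1
      have hsq' : ∀ c ∈ A, (c : GL ι F).val * (c : GL ι F).val = 1 := fun c hc => by
        simpa using congrArg (fun z : N => (z : GL ι F).val) (hA2 c hc)
      have hc : (a : GL ι F).val * (b : GL ι F).val = (b : GL ι F).val * (a : GL ι F).val := by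
        simpa using congrArg (fun z : A => ((z : N) : GL ι F).val) (hAc.is_comm.comm ⟨a, ha⟩ ⟨b, hb⟩)
      simpa using involution_dichotomy hf hn h2 (hsq' a ha) (hsq' b hb) hc (hNiso _ a.2) (hNiso _ b.2)
        h1 hn1
    have hinj : Function.Injective fun a : A => ((a : N) : GL ι F).val :=
      fun a b e => Subtype.ext (Subtype.ext (Units.ext e))
    suffices hs : ∃ S : Finset (Matrix ι ι F), S.card ≤ 4 ∧ ∀ a ∈ A, (a : GL ι F).val ∈ S by
      obtain ⟨S, hS, hmem⟩ := hs
      have : Nat.card A ≤ S.card := by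
        rw [← Nat.card_eq_finsetCard S]
        exact Nat.card_le_card_of_injective (fun a : A => (⟨_, hmem a a.2⟩ : S))
          fun a b e => hinj (congrArg Subtype.val e)
      omega
    by_cases hex : ∃ a ∈ A, (a : GL ι F).val ≠ 1 ∧ (a : GL ι F).val ≠ -1
    · obtain ⟨a, ha, h1, hn1⟩ := hex
      exact ⟨_, Finset.card_le_four, fun b hb => hpair a ha b hb h1 hn1⟩
    · push Not at hex
      refine ⟨{1, -1}, Finset.card_le_two.trans (by norm_num), fun a ha => ?_⟩
      by_cases h1 : (a : GL ι F).val = 1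
      · simp [h1]
      · simp [hex a ha h1]

end CfsgLib.AschFour
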