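import Mathlib
import Cfsg.Agent.Eq.Def_GeometricClasses
import Cfsg.Agent.AschFour.SympBasic
import Cfsg.Agent.AschLinear.Dim4Commute

/-!
Maximal subgroups of the symplectic group in dimension four: the reduction, up to the two exceptions
over three elements.
-/

set_option autoImplicit false
set_option linter.unusedSectionVars false
set_option linter.style.haveILetI false

namespace CfsgLib.AschFour

open Matrix Cfsg Module CfsgLib.Aschbacher CfsgLib.Aschbacher.Centre CfsgLib.Aschbacher.Forms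
  CfsgLib.Aschbacher.Reduction CfsgLib.AltFormTransv CfsgLib.Aschbacher.Symp

open scoped Kronecker

variable {ι : Type} [Fintype ι] [DecidableEq ι] {F : Type*} [Field F] [Fintype F]
variable {f : (ι → F) → (ι → F) → F} {I H : Subgroup (GL ι F)}

/-- The possibilities for a maximal subgroup of the isometry group in dimension four. -/
def SympOutcome (f : (ι → F) → (ι → F) → F) (I H : Subgroup (GL ι F)) : Prop :=
  (∃ W : Submodule F (ι → F), W ≠ ⊥ ∧ Geo.IsTotallySingularFor f W ∧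
    H = Geo.subspaceStabilizer W ⊓ I) ∨
  (∃ D : Fin 2 → Submodule F (ι → F), Geo.IsNondegenerateMDecomposition f 2 D ∧
    H = Geo.decompositionStabilizer D ⊓ I) ∨
  (Odd (Fintype.card F) ∧ ∃ D : Fin 2 → Submodule F (ι → F), Geo.IsMDecomposition 2 D ∧
    (∀ i, Geo.IsTotallySingularFor f (D i)) ∧ H = Geo.decompositionStabilizer D ⊓ I) ∨
  (∃ K : Subalgebra F (Matrix ι ι F), Geo.IsFieldSubalgebra 2 K ∧
    Geo.IsSelfAdjointFor f K ∧ (∀ k ∈ K, ∀ v, f (k *ᵥ v) v = 0) ∧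
    H = Geo.subalgebraNormalizer K ⊓ I) ∨
  (Odd (Fintype.card F) ∧ ∃ K : Subalgebra F (Matrix ι ι F), Geo.IsFieldSubalgebra 2 K ∧
    Geo.IsAdjointClosedFor f K ∧ ¬ Geo.IsSelfAdjointFor f K ∧ H = Geo.subalgebraNormalizer K ⊓ I) ∨
  (∃ (F₀ : Subfield F) (r : ℕ) (P : GL ι F) (ζ : F), r.Prime ∧ Fintype.card F = Nat.card F₀ ^ r ∧
    ζ ≠ 0 ∧ Geo.IsFormRationalStructure f F₀ ζ P ∧ H = Geo.subfieldSubgroup F₀ P ⊓ I) ∨
  (Odd (Fintype.card F) ∧ ∃ (p : ℕ) (R : Subgroup (GL ι F)), p.Prime ∧ Fintype.card F = p ∧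
    Geo.IsSymplecticTypeGroup 2 R ∧ Geo.ActsAbsolutelyIrreducibly (Geo.matrixSet R) ∧
    R ≤ Geo.similarityGroup f ∧ Nat.card R = 32 ∧ Nat.card (Subgroup.center R) = 2 ∧
    Geo.IsOfMinusType 2 R ∧ H = Geo.subgroupNormalizer R ⊓ I) ∨
  (¬ Odd (Fintype.card F) ∧ ∃ Q : (ι → F) → F, Geo.IsNondegenerateQuadraticForm Q ∧
    (∀ u v, QuadraticMap.polar Q u v = f u v) ∧ H = Geo.quadSimilarityGroup Q ⊓ I) ∨
  Geo.InSymplecticResidualClass H

/-- A maximal subgroup normalising an absolutely irreducible group realised over a proper subfield. -/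
theorem subfield_case (hf : Geo.IsSymplecticForm f) [Nonempty ι] (hT : ∀ v c, sympT hf v c ∈ I)
    (hn : 2 ≤ Fintype.card ι) (hH : Geo.IsMaximalIn I H) {P : Subgroup (GL ι F)}
    (hfix : Geo.FixesForm (Geo.matrixSet P) f) (habs : Geo.ActsAbsolutelyIrreducibly (Geo.matrixSet P))
    (hnorm : ∀ h ∈ H, ∀ x ∈ P, h * x * h⁻¹ ∈ P) {F₀ : Subfield F} (h0 : F₀ ≠ ⊤)
    (hreal : Geo.RealisableOver F₀ (Geo.matrixSet P)) :
    ∃ (F₁ : Subfield F) (r : ℕ) (P' : GL ι F) (ζ : F), r.Prime ∧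
      Fintype.card F = Nat.card F₁ ^ r ∧ ζ ≠ 0 ∧ Geo.IsFormRationalStructure f F₁ ζ P' ∧
      H = Geo.subfieldSubgroup F₁ P' ⊓ I := by
  obtain ⟨B, hB⟩ := hreal
  have hr := rform_of_symplectic hf
  obtain ⟨F₁, r, h01, hrp, hcardF, h1⟩ := exists_subfield_prime_index h0
  have hB1 : ∀ s ∈ Geo.matrixSet P, ∀ i j, (B.val * s * (B⁻¹ : GL ι F).val) i j ∈ F₁ :=
    fun s hs i j => h01 (hB s hs i j)
  obtain ⟨i, j, hij⟩ : ∃ i j, f ((B⁻¹ : GL ι F).val *ᵥ Pi.single i 1)
      ((B⁻¹ : GL ι F).val *ᵥ Pi.single j 1) ≠ 0 := by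
    by_contra! hall
    obtain ⟨v, w, hvw⟩ := IsNondegenerateForm.exists_ne (by omega) hf.nondegenerate
    apply hvw
    rw [← mulVec_inv_mulVec B⁻¹ v, ← mulVec_inv_mulVec B⁻¹ w, pi_eq_sum_univ' ((B⁻¹)⁻¹.val *ᵥ v),
      pi_eq_sum_univ' ((B⁻¹)⁻¹.val *ᵥ w), Matrix.mulVec_sum, Matrix.mulVec_sum, hr.sesq.sum_left]
    refine Finset.sum_eq_zero fun a _ => ?_
    rw [hr.sesq.sum_right]
    refine Finset.sum_eq_zero fun b _ => ?_
    rw [Matrix.mulVec_smul, Matrix.mulVec_smul, hr.sesq.smul_left, hr.sesq.smul_right, hall, mul_zero,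
      mul_zero]
  refine ⟨F₁, r, B⁻¹, _, hrp, hcardF, inv_ne_zero hij, ?_,
    eq_inf_of_le hH (le_subfieldSubgroup_of_realisable habs hnorm hB1)
      (not_le_subfieldSubgroup hf hT hn h1 _)⟩
  intro u v hu hv
  rw [pi_eq_sum_univ' u, pi_eq_sum_univ' v, Matrix.mulVec_sum, Matrix.mulVec_sum, hr.sesq.sum_left,
    Finset.mul_sum]
  refine sum_mem fun a _ => ?_
  rw [hr.sesq.sum_right, Finset.mul_sum]
  refine sum_mem fun b _ => ?_
  rw [Matrix.mulVec_smul, Matrix.mulVec_smul, hr.sesq.smul_left, hr.sesq.smul_right, RingHom.id_apply]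
  have := CfsgLib.AschPrime.gram_ratio_mem (σ := RingHom.id F) (fun x hx => hx) habs hr.sesq
    hf.nondegenerate hfix hB1 hij a b
  rw [div_eq_inv_mul] at this
  convert F₁.mul_mem (F₁.mul_mem (hu a) (hv b)) this using 1
  ring

section

variable (hf : Geo.IsSymplecticForm f) (hIf : ∀ g ∈ I,
  ∀ u v, f ((g : Matrix ι ι F) *ᵥ u) ((g : Matrix ι ι F) *ᵥ v) = f u v)
  (hT : ∀ v c, sympT hf v c ∈ I) (hn : Fintype.card ι = 4) (hH : Geo.IsMaximalIn I H)

include hf hIf hT hn hH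

theorem quad_outcome (ho : ¬ Odd (Fintype.card F)) {Q : (ι → F) → F}
    (hQ : Geo.IsNondegenerateQuadraticForm Q) (hpol : ∀ u v, QuadraticMap.polar Q u v = f u v)
    (hle : H ≤ Geo.quadSimilarityGroup Q) : SympOutcome f I H :=
  Or.inr (Or.inr (Or.inr (Or.inr (Or.inr (Or.inr (Or.inr (Or.inl ⟨ho, Q, hQ, hpol,
    eq_inf_of_le hH hle (not_le_quadSimilarityGroup hf hT (by omega) hQ hpol)⟩)))))))

theorem comm_outcome [Nonempty ι] (hirr : Geo.ActsIrreducibly (Geo.matrixSet H))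
    {Z : Subalgebra F (Matrix ι ι F)} (hc : ∀ x ∈ Z, ∀ y ∈ Z, x * y = y * x) (hcl : Closed f Z)
    (hN : Normalises H Z) (hbot : Z ≠ ⊥) : SympOutcome f I H := by
  have hr := rform_of_symplectic hf
  have hG : ∀ g ∈ H, ∃ c : F, c ≠ 0 ∧
      ∀ u v, f ((g : Matrix ι ι F) *ᵥ u) ((g : Matrix ι ι F) *ᵥ v) = c * f u v :=
    fun g hg => ⟨1, one_ne_zero, fun u v => by rw [one_mul]; exact hIf g (hH.1.le hg) u v⟩
  rcases fieldLike_or_idemSystem hirr hN hc with hfl | ⟨t, ⟨S⟩⟩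
  · obtain ⟨r, hrp, hrn, -, hK, hle⟩ := exists_prime_subfield hN hc hfl hbot
    obtain rfl : r = 2 := by
      have h1 : r ∣ 2 ^ 2 := by rw [hn] at hrn; exact hrn
      exact (Nat.prime_dvd_prime_iff_eq hrp Nat.prime_two).1 (hrp.dvd_of_dvd_pow h1)
    have hKc := closed_powFixed hr hc hcl 2
    have heq := eq_inf_of_le hH hle (not_le_subalgebraNormalizer hf hT (by omega) hK le_rfl)
    by_cases hsa : Geo.IsSelfAdjointFor f (powFixed Z hc 2)
    · exact Or.inr (Or.inr (Or.inr (Or.inl ⟨_, hK, hsa, alternating_of_selfAdjoint hf hK hsa, heq⟩)))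
    · by_cases ho : Odd (Fintype.card F)
      · exact Or.inr (Or.inr (Or.inr (Or.inr (Or.inl
          ⟨ho, _, hK, hKc.isAdjointClosedFor, hsa, heq⟩))))
      · obtain ⟨Q, hQ, hpol, hpres⟩ :=
          quad_of_not_selfAdjoint (two_eq_zero_of_not_odd ho) hf hK hKc hsa
        exact quad_outcome hf hIf hT hn hH ho hQ hpol fun g hg => hpres g (hle hg) (hIf g (hH.1.le hg))
  · rcases frame_form_cases hr hG S.toFrame (idemSystem_adj hr hc hcl S) with
      ⟨s, k, D, hD, hsk, hle⟩ | ⟨k, D, hD, hk, hts, hle⟩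
    · have hk : Even k := by
        have := even_finrank hf (hD.nondegenerate ⟨0, by have := hD.decomp.two_le; omega⟩)
        rwa [hD.decomp.finrank_eq] at this
      have h2 := hD.decomp.two_le
      have h4 : s * k = 4 := hsk.trans hn
      obtain ⟨l, rfl⟩ := hk
      have hl : 0 < l := by have := hD.decomp.pos; omega
      obtain ⟨rfl, rfl⟩ : s = 2 ∧ l = 1 := by
        have : s * l = 2 := by linarith
        rcases Nat.prime_two.eq_one_or_self_of_dvd s ⟨l, this.symm⟩ with h | h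
        · omega
        · subst h; exact ⟨rfl, by omega⟩
      exact Or.inr (Or.inl ⟨D, hD, eq_inf_of_le hH hle (not_le_decompositionStabilizer hf hT hD.decomp)⟩)
    · obtain rfl : k = 2 := by omega
      by_cases ho : Odd (Fintype.card F)
      · exact Or.inr (Or.inr (Or.inl ⟨ho, D, hD, hts,
          eq_inf_of_le hH hle (not_le_decompositionStabilizer hf hT hD)⟩))
      · obtain ⟨Q, hQ, hpol, hpres⟩ := pair_quad (two_eq_zero_of_not_odd ho) hf hD hts
        exact quad_outcome hf hIf hT hn hH ho hQ hpol fun g hg => hpres g (hle hg) (hIf g (hH.1.le hg))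

theorem tensor_outcome [Nonempty ι] (hirr : Geo.ActsIrreducibly (Geo.matrixSet H))
    {d k : ℕ} {e : ι ≃ Fin d × Fin k} {P : GL ι F} (hd : 2 ≤ d) (hk : 2 ≤ k)
    (hmem : ∀ M : Matrix (Fin d) (Fin d) F, ∃ M', IsAdj f
      (CfsgLib.Aschbacher.tconj e P (M ⊗ₖ (1 : Matrix (Fin k) (Fin k) F)))
      (CfsgLib.Aschbacher.tconj e P (M' ⊗ₖ (1 : Matrix (Fin k) (Fin k) F))))
    (hle : H ≤ Geo.tensorProductSubgroup d k e P) : SympOutcome f I H := by
  have hr := rform_of_symplectic hf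
  have hiso : ∀ g ∈ H, ∀ u v, f ((g : Matrix ι ι F) *ᵥ u) ((g : Matrix ι ι F) *ᵥ v) = f u v :=
    fun g hg => hIf g (hH.1.le hg)
  obtain ⟨rfl, rfl⟩ : d = 2 ∧ k = 2 := by
    have h := hn
    rw [Fintype.card_congr e, Fintype.card_prod, Fintype.card_fin, Fintype.card_fin] at h
    constructor <;> nlinarith
  obtain ⟨X, C, hX, hC, hΓ⟩ := exists_pullGram_eq_kronecker hr (e := e) (P := P) hmem
  obtain ⟨δ₁, δ₂, hδ, hδ₁, hX', hC'⟩ := factor_refl hr hX.ne_zero hC.ne_zero hΓ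
  simp only [RingHom.id_apply] at hδ₁ hX' hC'
  by_cases ho : Odd (Fintype.card F)
  · have h2 := two_ne_zero_of_odd_card ho
    rcases mul_self_eq_one_iff.1 hδ₁ with rfl | rfl
    · obtain ⟨Z, hZc, hZcl, hZn, hZb⟩ := comm_of_plane hr h2 hC hX (fun i j => by simpa using hX' i j)
        (pullGram_swap hΓ) (hle.trans (tensorProductSubgroup_comm e P)) hiso
      exact comm_outcome hf hIf hT hn hH hirr hZc hZcl hZn hZb
    · have hδ2 : δ₂ = 1 := by linear_combination -hδ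
      obtain ⟨Z, hZc, hZcl, hZn, hZb⟩ := comm_of_plane hr h2 hX hC
        (fun i j => by simpa [hδ2] using hC' i j) hΓ hle hiso
      exact comm_outcome hf hIf hT hn hH hirr hZc hZcl hZn hZb
  · have h2 := two_eq_zero_of_not_odd ho
    have hδ₁1 : δ₁ = 1 := by
      rcases mul_self_eq_one_iff.1 hδ₁ with h | h
      · exact h
      · rw [h]; linear_combination -h2
    have hδ₂1 : δ₂ = 1 := by rw [hδ₁1, one_mul] at hδ; rw [hδ]; linear_combination -h2
    have hXs : ∀ i j, X i j = X j i := fun i j => by simpa [hδ₁1] using hX' i j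
    have hCs : ∀ i j, C i j = C j i := fun i j => by simpa [hδ₂1] using hC' i j
    by_cases hCd : ∃ i, C i i ≠ 0
    · obtain ⟨W, hW0, hW1, hW⟩ := exists_invariant_of_symm_factor h2 hk hX hC hr hΓ hCs hCd
      exact absurd (eq_top_of_invariant hirr hW0 fun g hg v hv =>
        hW g (hle hg) ⟨1, one_ne_zero, fun u v => by rw [one_mul]; exact hiso g hg u v⟩ v hv) hW1
    by_cases hXd : ∃ i, X i i ≠ 0
    · obtain ⟨W, hW0, hW1, hW⟩ := exists_invariant_of_symm_factor h2 hd hC hX hr (pullGram_swap hΓ) hXs hXd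
      exact absurd (eq_top_of_invariant hirr hW0 fun g hg v hv =>
        hW g (tensorProductSubgroup_comm e P (hle hg))
          ⟨1, one_ne_zero, fun u v => by rw [one_mul]; exact hiso g hg u v⟩ v hv) hW1
    push Not at hCd hXd
    obtain ⟨Q, hQ, hpol, -, hpres⟩ := exists_quad_of_alt_factors h2 hX hC hf hΓ hXs hXd hCs hCd
    exact quad_outcome hf hIf hT hn hH ho hQ hpol fun g hg => hpres g (hle hg)
      ⟨1, one_ne_zero, fun u v => by rw [one_mul]; exact hiso g hg u v⟩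

theorem reducible_outcome [Nonempty ι] (hirr : ¬ Geo.ActsIrreducibly (Geo.matrixSet H)) :
    SympOutcome f I H := by
  have hiso : ∀ g ∈ H, ∀ u v, f ((g : Matrix ι ι F) *ᵥ u) ((g : Matrix ι ι F) *ᵥ v) = f u v :=
    fun g hg => hIf g (hH.1.le hg)
  simp only [Geo.ActsIrreducibly, not_forall, not_or] at hirr
  obtain ⟨W, hW, hW0, hW1⟩ := hirr
  have hWinv : ∀ g ∈ H, ∀ v ∈ W, (g : Matrix ι ι F) *ᵥ v ∈ W := fun g hg v hv =>
    hW _ ⟨g, hg, rfl⟩ ⟨v, hv, Matrix.toLin'_apply _ _⟩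
  have hOinv : ∀ g ∈ H, ∀ v ∈ orth hf W, (g : Matrix ι ι F) *ᵥ v ∈ orth hf W := by
    intro g hg v hv
    rw [mem_orth] at hv ⊢
    intro w hw
    rw [← hiso g⁻¹ (H.inv_mem hg), inv_mulVec_mulVec]
    exact hv _ (hWinv _ (H.inv_mem hg) w hw)
  by_cases hR : W ⊓ orth hf W = ⊥
  swap
  · exact Or.inl ⟨_, hR, fun u hu v hv => (mem_orth hf).1 hv.2 u hu.1,
      eq_inf_of_le hH (fun g hg => mem_subspaceStabilizer_of_mapsTo
          fun v hv => ⟨hWinv g hg v hv.1, hOinv g hg v hv.2⟩)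
        (not_le_subspaceStabilizer hf hT hR fun h => hW1 (top_le_iff.1 (h ▸ inf_le_left)))⟩
  obtain ⟨hWn, hOn, hsum, htop⟩ := orth_spec hf hR
  rw [hn] at hsum
  have hWpos : finrank F W ≠ 0 := fun h => hW0 (Submodule.finrank_eq_zero.1 h)
  have hOpos : finrank F (orth hf W) ≠ 0 := fun h => hW1 (by
    rw [← htop, Submodule.finrank_eq_zero.1 h, sup_bot_eq])
  obtain ⟨a, ha⟩ := even_finrank hf hWn
  obtain ⟨b, hb⟩ := even_finrank hf hOn
  let D : Fin 2 → Submodule F (ι → F) := ![W, orth hf W]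
  have hD : Geo.IsNondegenerateMDecomposition f 2 D := by
    refine ⟨⟨le_rfl, two_pos, Fin.forall_fin_two.2 ⟨show finrank F W = 2 by omega,
      show finrank F (orth hf W) = 2 by omega⟩, ?_, ?_⟩, Fin.forall_fin_two.2 ⟨hWn, hOn⟩, ?_⟩
    · rw [iSupIndep_pair (i := (0 : Fin 2)) (j := 1) (by decide) (fun k => by omega)]
      exact disjoint_iff.2 hR
    · rw [eq_top_iff, ← htop]
      exact sup_le (le_iSup D 0) (le_iSup D 1)
    · intro i j hij
      fin_cases i <;> fin_cases j <;> first | exact absurd rfl hij | skip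
      · exact fun u hu v hv => (mem_orth hf).1 hv u hu
      · exact fun u hu v hv => orth_comm hf ((mem_orth hf).1 hu v hv)
  refine Or.inr (Or.inl ⟨D, hD, eq_inf_of_le hH (fun g hg => ⟨1, Fin.forall_fin_two.2 ⟨?_, ?_⟩⟩)
    (not_le_decompositionStabilizer hf hT hD.decomp)⟩)
  · exact Submodule.eq_of_le_of_finrank_eq (by
      rintro _ ⟨v, hv, rfl⟩; rw [Matrix.toLin'_apply]; exact hWinv g hg v hv) (finrank_map_gl g W)
  · exact Submodule.eq_of_le_of_finrank_eq (by
      rintro _ ⟨v, hv, rfl⟩; rw [Matrix.toLin'_apply]; exact hOinv g hg v hv) (finrank_map_gl g _)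

theorem abelian_outcome [Nonempty ι] (hall : NormalsAbsIrred H) {N : Subgroup (GL ι F)} {r : ℕ}
    (h : AbelianData H N r) : SympOutcome f I H := by
  classical
  have hiso : ∀ g ∈ H, ∀ u v, f ((g : Matrix ι ι F) *ᵥ u) ((g : Matrix ι ι F) *ᵥ v) = f u v :=
    fun g hg => hIf g (hH.1.le hg)
  obtain ⟨h2, -⟩ := abelian_two_ne hn h
  obtain ⟨hsc, hR, hcard, hcentre, hminus⟩ := abelian_symplecticType hf hn hiso h hall
  have hfix : Geo.FixesForm (Geo.matrixSet N) f := by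
    rintro _ ⟨x, hx, rfl⟩ u v; exact hiso x (h.le hx) u v
  obtain ⟨p, hchar⟩ := CharP.exists F
  obtain ⟨k, hp, hpk⟩ := FiniteField.card F p
  by_cases hk : (k : ℕ) = 1
  · have ho : Odd (Fintype.card F) := odd_card_of_two_ne_zero h2
    refine Or.inr (Or.inr (Or.inr (Or.inr (Or.inr (Or.inr (Or.inl
      ⟨ho, p, N, hp, by rw [hpk, hk, pow_one], hR, h.absIrred, fun g hg => ⟨1, fun u v => by
        rw [Units.val_one, one_mul]; exact hiso g (h.le hg) u v⟩, hcard, hcentre, hminus, ?_⟩))))))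
    refine eq_inf_of_le hH (le_normalizer_of_forall_conj h.normal) fun hle => ?_
    obtain ⟨v, hv⟩ := exists_ne (0 : ι → F)
    obtain ⟨w, hw⟩ := (hf.nondegenerate v hv).1
    exact not_le_subgroupNormalizer hn h.absIrred h.comm (hT v 1) hv
      (φ := pair hf v) (fun e => hw (by rw [← pair_apply hf v w, e, LinearMap.zero_apply]))
      (hf.alternating v) (fun u => by rw [sympT_mulVec, one_mul, pair_apply]) hle
  · haveI := Fact.mk hp
    let F₀ : Subfield F := (⊥ : Subfield F)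
    have hne : F₀ ≠ ⊤ := by
      intro htop
      have h1 : Nat.card (⊥ : Subfield F) = p := Subfield.card_bot F p
      have h2' : Nat.card (⊤ : Subfield F) = Fintype.card F := by
        rw [← Nat.card_eq_fintype_card]; exact Nat.card_congr (Equiv.Set.univ F)
      rw [show (⊥ : Subfield F) = ⊤ from htop, h2', hpk] at h1
      exact hk (Nat.pow_right_injective hp.two_le (h1.trans (pow_one p).symm))
    obtain ⟨F₁, l, -, hl, hF₁, hne₁⟩ := exists_subfield_prime_index hne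
    have hreal := realisableOver_of_scalars_mem h.absIrred (fun x hx y hy => h.comm y hy x hx) F₁ hl
      hF₁ fun c hc => by
        rcases hsc c hc with rfl | rfl
        · exact F₁.one_mem
        · simpa using F₁.neg_mem F₁.one_mem
    exact Or.inr (Or.inr (Or.inr (Or.inr (Or.inr (Or.inl
      (subfield_case hf hT (by omega) hH hfix h.absIrred h.normal hne₁ hreal))))))

theorem core_outcome [Nonempty ι] {P : Subgroup (GL ι F)} (hP : CoreData H P) : SympOutcome f I H := by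
  have hiso : ∀ g ∈ H, ∀ u v, f ((g : Matrix ι ι F) *ᵥ u) ((g : Matrix ι ι F) *ᵥ v) = f u v :=
    fun g hg => hIf g (hH.1.le hg)
  have hfix : Geo.FixesForm (Geo.matrixSet P) f := by
    rintro _ ⟨x, hx, rfl⟩ u v
    exact hiso x (hP.le hx) u v
  by_cases hreal : ∃ F₀ : Subfield F, F₀ ≠ ⊤ ∧ Geo.RealisableOver F₀ (Geo.matrixSet P)
  · obtain ⟨F₀, h0, hreal⟩ := hreal
    exact Or.inr (Or.inr (Or.inr (Or.inr (Or.inr (Or.inl
      (subfield_case hf hT (by omega) hH hfix hP.absIrred hP.normal h0 hreal))))))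
  by_cases hQ : ∃ Q : (ι → F) → F, Geo.IsNondegenerateQuadraticForm Q ∧
      Geo.FixesQuadForm (Geo.matrixSet P) Q
  · obtain ⟨Q, hQ, hQfix⟩ := hQ
    obtain ⟨ho, Q', hQ', hpol, hle⟩ :=
      quad_of_fixed hf hiso (by omega) hP.absIrred hP.normal hfix hQ hQfix
    exact quad_outcome hf hIf hT hn hH ho hQ' hpol hle
  refine Or.inr (Or.inr (Or.inr (Or.inr (Or.inr (Or.inr (Or.inr (Or.inr
    ⟨P, hP.isResidualCore fun F₀ h0 hh => hreal ⟨F₀, h0, hh⟩, hQ, ?_⟩)))))))
  rintro ⟨σ, h, hh, hfixh⟩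
  exact hreal (realisable_of_unitary hf hP.absIrred hfix hh hfixh)

/-- Maximal subgroups of the isometry group in dimension four. -/
theorem symp_four_cases : SympOutcome f I H := by
  classical
  haveI : Nonempty ι := Fintype.card_pos_iff.1 (by omega)
  have hr := rform_of_symplectic hf
  have hiso : ∀ g ∈ H, ∀ u v, f ((g : Matrix ι ι F) *ᵥ u) ((g : Matrix ι ι F) *ᵥ v) = f u v :=
    fun g hg => hIf g (hH.1.le hg)
  by_cases hirr : Geo.ActsIrreducibly (Geo.matrixSet H)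
  swap
  · exact reducible_outcome hf hIf hT hn hH hirr
  by_cases hall : NormalsAbsIrred H
  · rcases normal_structure hall (not_le_scalars (by omega) hirr) with ⟨N, r, hA⟩ | ⟨d, S, hS⟩ | ⟨P, hP⟩
    · exact abelian_outcome hf hIf hT hn hH hall hA
    · obtain ⟨Q, hQ, hle⟩ := CfsgLib.AschLinear.le_quadSimilarity_of_commutingData hn hS
      rcases twist_cases hf hiso hQ hle with ⟨Z, hZc, hZcl, hZn, hZb⟩ | ⟨ho, Q', hQ', hpol, hle'⟩
      · exact comm_outcome hf hIf hT hn hH hirr hZc hZcl hZn hZb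
      · exact quad_outcome hf hIf hT hn hH ho hQ' hpol hle'
    · exact core_outcome hf hIf hT hn hH hP
  simp only [NormalsAbsIrred, not_forall] at hall
  obtain ⟨N, hNH, hn', hns, hna⟩ := hall
  have hw := ((normal_cases hirr hn').resolve_left hns).resolve_left hna
  have hcl : Closed f (algOf N) := closed_adjoin hr fun g hg => hiso g (hNH hg)
  have hcomm : centreAlg (algOf N) ≠ ⊥ → SympOutcome f I H := fun hb =>
    comm_outcome hf hIf hT hn hH hirr centre_comm (hcl.centre hr) (normalises_algOf hn').centreAlg hb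
  rcases hw with ⟨t, ⟨S⟩⟩ | ⟨r, hrp, -, -, hrd, -, -⟩ | ⟨d, k, e, P, hd, hk, hmem, hle⟩
  · refine hcomm fun hb => ?_
    have h0 : (0 : ℕ) < t := by have := S.two_le; omega
    have hi : S.e ⟨0, h0⟩ ∈ (⊥ : Subalgebra F (Matrix ι ι F)) := hb.le (S.mem ⟨0, h0⟩)
    obtain ⟨c, hc⟩ := Algebra.mem_bot.1 hi
    have hid := S.idem ⟨0, h0⟩
    rw [← hc, ← map_mul] at hid
    rcases eq_or_ne c 0 with rfl | hc0
    · exact S.ne_zero _ (by rw [← hc, map_zero])
    · have h1 : c = 1 := mul_left_cancel₀ hc0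
        (((algebraMap F (Matrix ι ι F)).injective hid).trans (mul_one c).symm)
      have := S.ortho ⟨0, h0⟩ ⟨1, S.two_le⟩ (by simp [Fin.ext_iff])
      rw [← hc, h1, map_one, one_mul] at this
      exact S.ne_zero _ this
  · refine hcomm fun hb => ?_
    rw [hb, Subalgebra.finrank_bot] at hrd
    exact hrp.ne_one (Nat.dvd_one.1 hrd)
  · refine tensor_outcome hf hIf hT hn hH hirr hd hk (fun M => ?_) hle
    obtain ⟨Y, hY, hadj⟩ := hcl _ ((hmem _).2 ⟨M, rfl⟩)
    obtain ⟨M', rfl⟩ := (hmem _).1 hY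
    exact ⟨M', hadj⟩

end

end CfsgLib.AschFour
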