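import Mathlib

/-!
Five anticommuting self-adjoint involutions for the standard alternating form in dimension four over
three elements.
-/

set_option autoImplicit false
set_option synthInstance.maxSize 2000

namespace CfsgLib.AschFour.ThreeFrame

open Matrix

abbrev M4 := Matrix (Fin 4) (Fin 4) (ZMod 3)

/-- The alternating form, which is also the square root of minus one. -/
def J0 : M4 := !![0, 2, 0, 0; 1, 0, 0, 0; 0, 0, 0, 2; 0, 0, 1, 0]

/-- The frame, with both signs. -/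
def frame : List M4 :=
  [!![0, 0, 1, 0; 0, 0, 0, 1; 1, 0, 0, 0; 0, 1, 0, 0],
   !![0, 0, 2, 0; 0, 0, 0, 2; 2, 0, 0, 0; 0, 2, 0, 0],
   !![0, 0, 0, 1; 0, 0, 2, 0; 0, 2, 0, 0; 1, 0, 0, 0],
   !![0, 0, 0, 2; 0, 0, 1, 0; 0, 1, 0, 0; 2, 0, 0, 0],
   !![0, 0, 1, 1; 0, 0, 1, 2; 2, 2, 0, 0; 2, 1, 0, 0],
   !![0, 0, 2, 2; 0, 0, 2, 1; 1, 1, 0, 0; 1, 2, 0, 0],
   !![0, 0, 1, 2; 0, 0, 2, 2; 2, 1, 0, 0; 1, 1, 0, 0],
   !![0, 0, 2, 1; 0, 0, 1, 1; 1, 2, 0, 0; 2, 2, 0, 0],
   !![1, 0, 0, 0; 0, 1, 0, 0; 0, 0, 2, 0; 0, 0, 0, 2],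
   !![2, 0, 0, 0; 0, 2, 0, 0; 0, 0, 1, 0; 0, 0, 0, 1]]

/-- An isometry of the frame moving the square root of minus one. -/
def g0 : M4 := !![0, 0, 1, 1; 0, 0, 1, 2; 0, 2, 0, 0; 1, 0, 0, 0]

/-- Its inverse. -/
def g0' : M4 := !![0, 0, 0, 1; 0, 0, 2, 0; 2, 2, 0, 0; 2, 1, 0, 0]

/-- A transvection. -/
def T0 : M4 := !![1, 1, 0, 0; 0, 1, 0, 0; 0, 0, 1, 0; 0, 0, 0, 1]

/-- Its inverse. -/
def T0' : M4 := !![1, 2, 0, 0; 0, 1, 0, 0; 0, 0, 1, 0; 0, 0, 0, 1]

/-- Row-major entries, for computing. -/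
def toL (A : M4) : List (ZMod 3) := [A 0 0, A 0 1, A 0 2, A 0 3, A 1 0, A 1 1, A 1 2, A 1 3, A 2 0, A 2 1, A 2 2, A 2 3, A 3 0, A 3 1, A 3 2, A 3 3]

/-- Product of row-major entry lists. -/
def mulL : List (ZMod 3) → List (ZMod 3) → List (ZMod 3)
  | [a00, a01, a02, a03, a10, a11, a12, a13, a20, a21, a22, a23, a30, a31, a32, a33],
    [b00, b01, b02, b03, b10, b11, b12, b13, b20, b21, b22, b23, b30, b31, b32, b33] =>
    [a00 * b00 + a01 * b10 + a02 * b20 + a03 * b30,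
     a00 * b01 + a01 * b11 + a02 * b21 + a03 * b31,
     a00 * b02 + a01 * b12 + a02 * b22 + a03 * b32,
     a00 * b03 + a01 * b13 + a02 * b23 + a03 * b33,
     a10 * b00 + a11 * b10 + a12 * b20 + a13 * b30,
     a10 * b01 + a11 * b11 + a12 * b21 + a13 * b31,
     a10 * b02 + a11 * b12 + a12 * b22 + a13 * b32,
     a10 * b03 + a11 * b13 + a12 * b23 + a13 * b33,
     a20 * b00 + a21 * b10 + a22 * b20 + a23 * b30,
     a20 * b01 + a21 * b11 + a22 * b21 + a23 * b31,
     a20 * b02 + a21 * b12 + a22 * b22 + a23 * b32,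
     a20 * b03 + a21 * b13 + a22 * b23 + a23 * b33,
     a30 * b00 + a31 * b10 + a32 * b20 + a33 * b30,
     a30 * b01 + a31 * b11 + a32 * b21 + a33 * b31,
     a30 * b02 + a31 * b12 + a32 * b22 + a33 * b32,
     a30 * b03 + a31 * b13 + a32 * b23 + a33 * b33]
  | _, _ => []

/-- Transpose of row-major entry lists. -/
def trL : List (ZMod 3) → List (ZMod 3)
  | [a00, a01, a02, a03, a10, a11, a12, a13, a20, a21, a22, a23, a30, a31, a32, a33] => [a00, a10, a20, a30, a01, a11, a21, a31, a02, a12, a22, a32, a03, a13, a23, a33]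
  | _ => []

theorem toL_mul (A B : M4) : toL (A * B) = mulL (toL A) (toL B) := by
  simp [toL, mulL, Matrix.mul_apply, Fin.sum_univ_four]

theorem toL_transpose (A : M4) : toL Aᵀ = trL (toL A) := rfl

theorem toL_neg (A : M4) : toL (-A) = (toL A).map Neg.neg := rfl

theorem toL_injective : Function.Injective toL := by
  intro A B h
  simp only [toL, List.cons.injEq] at h
  ext i j
  fin_cases i <;> fin_cases j <;> simp_all

theorem toL_eq_iff {A B : M4} : A = B ↔ toL A = toL B := toL_injective.eq_iff.symm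

theorem mem_frame_iff {A : M4} : A ∈ frame ↔ toL A ∈ frame.map toL :=
  (List.mem_map_of_injective toL_injective).symm

/-- The computed facts on entries. -/
def checkFacts : List Bool :=
  let j := toL J0
  let o := toL 1
  let fr := frame.map toL
  [mulL j j == o.map Neg.neg, trL j == j.map Neg.neg, mulL (toL g0) (toL g0') == o,
   mulL (toL g0') (toL g0) == o, mulL (toL T0) (toL T0') == o, mulL (toL T0') (toL T0) == o,
   mulL (mulL (trL (toL g0)) j) (toL g0) == j, mulL (mulL (trL (toL T0)) j) (toL T0) == j,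
   fr.all (fun y => fr.contains (mulL (mulL (toL g0) y) (toL g0')) &&
     fr.contains (mulL (mulL (toL g0') y) (toL g0))),
   !(mulL (mulL (toL g0) j) (toL g0') == j) && !(mulL (mulL (toL g0) j) (toL g0') == j.map Neg.neg),
   fr.any (fun y => !fr.contains (mulL (mulL (toL T0) y) (toL T0'))),
   fr.all (fun y => mulL (trL y) j == mulL j y && mulL y y == o && !(y == o) && !(y == o.map Neg.neg) &&
     (mulL y j == mulL j y || mulL y j == (mulL j y).map Neg.neg))]

theorem checkFacts_eq : checkFacts = List.replicate 12 true := by decide +kernel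

theorem facts :
    J0 * J0 = -1 ∧ J0ᵀ = -J0 ∧ g0 * g0' = 1 ∧ g0' * g0 = 1 ∧ T0 * T0' = 1 ∧ T0' * T0 = 1 ∧
    g0ᵀ * J0 * g0 = J0 ∧ T0ᵀ * J0 * T0 = J0 ∧
    (∀ Y ∈ frame, g0 * Y * g0' ∈ frame ∧ g0' * Y * g0 ∈ frame) ∧
    (g0 * J0 * g0' ≠ J0 ∧ g0 * J0 * g0' ≠ -J0) ∧
    (∃ Y ∈ frame, T0 * Y * T0' ∉ frame) ∧
    (∀ Y ∈ frame, Yᵀ * J0 = J0 * Y ∧ Y * Y = 1 ∧ Y ≠ 1 ∧ Y ≠ -1 ∧ (Y * J0 = J0 * Y ∨ Y * J0 = -(J0 * Y))) := by
  have h := checkFacts_eq
  simp [checkFacts, List.replicate, List.all_eq_true, List.any_eq_true, ← toL_mul, ← toL_transpose,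
    ← toL_neg, ← toL_eq_iff, toL_injective.eq_iff] at h
  simpa [and_assoc] using h

/-- The row-major entries of the self-adjoint matrix with the given parameters. -/
def sL (a b c d e g : ZMod 3) : List (ZMod 3) :=
  [-a, 0, d, e, 0, -a, -b, -c, -c, -e, -g, 0, b, d, 0, -g]

/-- The test on parameters. -/
def check (v : List (ZMod 3)) : Bool :=
  !((mulL v (toL J0) == mulL (toL J0) v || mulL v (toL J0) == (mulL (toL J0) v).map Neg.neg) &&
      mulL v v == toL 1) || v == toL 1 || v == (toL 1).map Neg.neg || (frame.map toL).contains v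

theorem check_all : ([0, 1, 2] : List (ZMod 3)).all (fun a => ([0, 1, 2] : List (ZMod 3)).all fun b =>
    ([0, 1, 2] : List (ZMod 3)).all fun c => ([0, 1, 2] : List (ZMod 3)).all fun d =>
    ([0, 1, 2] : List (ZMod 3)).all fun e => ([0, 1, 2] : List (ZMod 3)).all fun g =>
      check (sL a b c d e g)) = true := by
  decide +kernel

theorem mem_012 : ∀ x : ZMod 3, x ∈ ([0, 1, 2] : List (ZMod 3)) := by decide

theorem mem_of_param (a b c d e g : ZMod 3) {S : M4}
    (hS : S = -(J0 * !![0, a, b, c; -a, 0, d, e; -b, -d, 0, g; -c, -e, -g, 0]))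
    (hJ : S * J0 = J0 * S ∨ S * J0 = -(J0 * S)) (hsq : S * S = 1) : S = 1 ∨ S = -1 ∨ S ∈ frame := by
  have h := check_all
  simp only [List.all_eq_true] at h
  have h := h a (mem_012 a) b (mem_012 b) c (mem_012 c) d (mem_012 d) e (mem_012 e) g (mem_012 g)
  have hv : toL S = sL a b c d e g := by
    rw [hS]
    simp [toL, sL, J0, Matrix.mul_apply, Fin.sum_univ_four, show (2 : ZMod 3) = -1 from rfl]
  rw [check, ← hv] at h
  simp only [toL_eq_iff, mem_frame_iff, toL_mul, toL_neg] at hJ hsq ⊢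
  rcases hJ with hJ | hJ <;> simp [hJ, hsq] at h <;> simp [List.mem_map] <;> tauto

/-- Every self-adjoint involution commuting or anticommuting with `J0` is a sign or in the frame. -/
theorem mem_frame {S : M4} (hadj : Sᵀ * J0 = J0 * S) (hJ : S * J0 = J0 * S ∨ S * J0 = -(J0 * S))
    (hsq : S * S = 1) : S = 1 ∨ S = -1 ∨ S ∈ frame := by
  have hA : (J0 * S)ᵀ = -(J0 * S) := by rw [Matrix.transpose_mul, facts.2.1, mul_neg, hadj]
  have hS : S = -(J0 * (J0 * S)) := by rw [← mul_assoc, facts.1, neg_one_mul, neg_neg]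
  generalize hAdef : J0 * S = A at hA hS
  have hanti : ∀ i j, A j i = -A i j := fun i j => congrFun (congrFun hA i) j
  have hdiag : ∀ i, A i i = 0 := fun i => by
    have h := hanti i i
    revert h
    generalize A i i = x
    revert x
    decide
  have hA' : A = !![0, A 0 1, A 0 2, A 0 3; -A 0 1, 0, A 1 2, A 1 3; -A 0 2, -A 1 2, 0, A 2 3;
      -A 0 3, -A 1 3, -A 2 3, 0] := by
    ext i j
    fin_cases i <;> fin_cases j <;> simp <;> first | exact hdiag _ | exact hanti _ _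
  exact mem_of_param (A 0 1) (A 0 2) (A 0 3) (A 1 2) (A 1 3) (A 2 3) (by rw [← hA', ← hS]) hJ hsq

end CfsgLib.AschFour.ThreeFrame
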