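import Mathlib
import Cfsg.Agent.Eq.Def_GeometricClasses
import Cfsg.Agent.AschFour.SympBasic
import Cfsg.Agent.AschFour.SympThreeFrame

/-!
The two exceptions over three elements: a pair of totally singular planes, and a quadratic subfield
that is not self-adjoint.
-/

set_option autoImplicit false
set_option linter.unusedSectionVars false
set_option linter.style.haveILetI false

namespace CfsgLib.AschFour

open Matrix Cfsg Module CfsgLib.Aschbacher CfsgLib.Aschbacher.Forms CfsgLib.AltFormTransv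
  CfsgLib.Aschbacher.Symp

variable {ι : Type} [Fintype ι] [DecidableEq ι] {F : Type*} [Field F] [Fintype F]
variable {f : (ι → F) → (ι → F) → F} {I H : Subgroup (GL ι F)}

/-- If every non-zero scalar is a sign, a pair of totally singular planes yields a pair of
non-degenerate planes. -/
theorem pair_to_planes (hf : Geo.IsSymplecticForm f) (hn : Fintype.card ι = 4) (h2 : (2 : F) ≠ 0)
    (hpm : ∀ c : F, c ≠ 0 → c = 1 ∨ c = -1) {D : Fin 2 → Submodule F (ι → F)}
    (hD : Geo.IsMDecomposition 2 D) (hts : ∀ i, Geo.IsTotallySingularFor f (D i)) :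
    ∃ D' : Fin 2 → Submodule F (ι → F), Geo.IsNondegenerateMDecomposition f 2 D' ∧
      ∀ g ∈ Geo.decompositionStabilizer D,
        (∀ u v, f ((g : Matrix ι ι F) *ᵥ u) ((g : Matrix ι ι F) *ᵥ v) = f u v) →
        g ∈ Geo.decompositionStabilizer D' := by
  classical
  haveI : Nonempty ι := Fintype.card_pos_iff.1 (by omega)
  have htop : D 0 ⊔ D 1 = ⊤ := by
    rw [eq_top_iff, ← hD.iSup_eq_top]
    exact iSup_le (Fin.forall_fin_two.2 ⟨le_sup_left, le_sup_right⟩)
  let b := Module.finBasisOfFinrankEq F (D 0) (hD.finrank_eq 0)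
  let d : (ι → F) → Fin 2 → F := fun x j => if hx : x ∈ D 0 then b.repr ⟨x, hx⟩ j else 0
  have hd : ∀ x (hx : x ∈ D 0) j, d x j = b.repr ⟨x, hx⟩ j := fun x hx j => dif_pos hx
  let Δ : (ι → F) → (ι → F) → F := fun x y => d x 0 * d y 1 - d x 1 * d y 0
  have hrep : ∀ x ∈ D 0, x = d x 0 • (b 0 : ι → F) + d x 1 • (b 1 : ι → F) := fun x hx => by
    have e := congrArg Subtype.val (b.sum_repr ⟨x, hx⟩)
    rw [Fin.sum_univ_two] at e
    rw [hd x hx, hd x hx]
    exact e.symm
  have hdlin : ∀ (s t : F) x y, x ∈ D 0 → y ∈ D 0 → ∀ j, d (s • x + t • y) j = s * d x j + t * d y j :=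
    fun s t x y hx hy j => by
      have e : (⟨s • x + t • y, add_mem ((D 0).smul_mem s hx) ((D 0).smul_mem t hy)⟩ : D 0) =
          s • ⟨x, hx⟩ + t • ⟨y, hy⟩ := rfl
      rw [hd _ (add_mem ((D 0).smul_mem s hx) ((D 0).smul_mem t hy)), hd x hx, hd y hy]
      refine (congrArg (fun z : D 0 => b.repr z j) e).trans ?_
      simp only [map_add, map_smul, Finsupp.add_apply, Finsupp.smul_apply, smul_eq_mul]
  have hdb : ∀ i j, d (b i : ι → F) j = if i = j then 1 else 0 := fun i j => by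
    rw [hd _ (b i).2]
    simp [Finsupp.single_apply]
  -- the pairing vectors
  have hpair : ∀ y ∈ D 0, ∃ z ∈ D 1, ∀ x ∈ D 0, f x z = Δ x y := by
    intro y hy
    obtain ⟨φ, hφ⟩ := LinearMap.exists_extend (p := D 0)
      ({ toFun := fun x : D 0 => Δ x y
         map_add' := fun x x' => by
           have h := hdlin 1 1 _ _ x.2 x'.2
           simp only [one_smul, one_mul] at h
           simp only [Δ, Submodule.coe_add, h]; ring
         map_smul' := fun c x => by
           have h := hdlin c 0 _ _ x.2 x.2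
           simp only [zero_smul, add_zero, zero_mul] at h
           simp only [Δ, Submodule.coe_smul, h, RingHom.id_apply, smul_eq_mul]; ring } : D 0 →ₗ[F] F)
    obtain ⟨w, hw⟩ := exists_pair_eq hf φ
    obtain ⟨w0, hw0, w1, hw1, rfl⟩ := Submodule.mem_sup.1 (htop ▸ Submodule.mem_top (x := w))
    refine ⟨w1, hw1, fun x hx => ?_⟩
    have h1 := congrArg (fun ψ : Module.Dual F (ι → F) => ψ x) hw
    have h3 := congrArg (fun ψ : D 0 →ₗ[F] F => ψ ⟨x, hx⟩) hφ
    simp only [LinearMap.comp_apply, Submodule.coe_subtype, LinearMap.coe_mk, AddHom.coe_mk] at h3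
    simp only [pair_apply, hf.bilinear.add_right, hts 0 x hx w0 hw0, zero_add] at h1
    rw [h1, h3]
  choose φ hφm hφ using hpair
  have huniq : ∀ z ∈ D 1, ∀ z' ∈ D 1, (∀ x ∈ D 0, f x z = f x z') → z = z' := by
    intro z hz z' hz' h
    by_contra hne
    obtain ⟨u, hu⟩ := (hf.nondegenerate (z - z') (sub_ne_zero.2 hne)).1
    obtain ⟨u0, hu0, u1, hu1, rfl⟩ := Submodule.mem_sup.1 (htop ▸ Submodule.mem_top (x := u))
    apply hu
    rw [hf.bilinear.add_left, hts 1 u1 hu1 _ ((D 1).sub_mem hz hz'), add_zero, sub_right hf, h u0 hu0,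
      sub_self]
  let Φ : D 0 →ₗ[F] (ι → F) :=
    { toFun := fun y => φ y y.2
      map_add' := fun y y' => huniq _ (hφm _ _) _ ((D 1).add_mem (hφm _ _) (hφm _ _)) fun x hx => by
        have h := hdlin 1 1 _ _ y.2 y'.2
        simp only [one_smul, one_mul] at h
        rw [hf.bilinear.add_right, hφ _ _ x hx, hφ _ _ x hx, hφ _ _ x hx]
        simp only [Δ, Submodule.coe_add, h]; ring
      map_smul' := fun c y => huniq _ (hφm _ _) _ ((D 1).smul_mem _ (hφm _ _)) fun x hx => by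
        have h := hdlin c 0 _ _ y.2 y.2
        simp only [zero_smul, add_zero, zero_mul] at h
        rw [RingHom.id_apply, hf.bilinear.smul_right, hφ _ _ x hx, hφ _ _ x hx]
        simp only [Δ, Submodule.coe_smul, h]; ring }
  have hΦm : ∀ y, Φ y ∈ D 1 := fun y => hφm _ y.2
  have hΦ : ∀ x ∈ D 0, ∀ y : D 0, f x (Φ y) = Δ x y := fun x hx y => hφ _ y.2 x hx
  let P : F → Submodule F (ι → F) := fun s => LinearMap.range ((D 0).subtype + s • Φ)
  have hform : ∀ (s t : F) (x y : D 0),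
      f ((x : ι → F) + s • Φ x) ((y : ι → F) + t • Φ y) = (s + t) * Δ x y := fun s t x y => by
    rw [hf.bilinear.add_left, hf.bilinear.add_right, hf.bilinear.add_right, hts 0 x x.2 y y.2,
      hf.bilinear.smul_left, hf.bilinear.smul_left, hf.bilinear.smul_right, hf.bilinear.smul_right,
      hts 1 _ (hΦm x) _ (hΦm y), hΦ x x.2 y, hf.skew (Φ x), hΦ y y.2 x]
    simp only [Δ]; ring
  have hΔb : Δ (b 0) (b 1) = 1 := by simp [Δ, hdb]
  have hinj : ∀ s : F, Function.Injective ((D 0).subtype + s • Φ) := by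
    intro s x y hxy
    have h : ((x - y : D 0) : ι → F) = -(s • Φ (x - y)) := by
      rw [eq_neg_iff_add_eq_zero, map_sub, smul_sub, Submodule.coe_sub]
      simp only [LinearMap.add_apply, LinearMap.smul_apply, Submodule.coe_subtype] at hxy
      linear_combination (norm := module) hxy
    have hdis : Disjoint (D 0) (D 1) := hD.indep.pairwiseDisjoint (by decide)
    exact sub_eq_zero.1 (Subtype.ext (Submodule.disjoint_def.1 hdis _ (x - y : D 0).2
      (h ▸ (D 1).neg_mem ((D 1).smul_mem s (hΦm _)))))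
  have hnd : ∀ s : F, s = 1 ∨ s = -1 → Geo.IsNondegenerateOn f (P s) := by
    rintro s hs _ ⟨x, rfl⟩ h0
    have hx0 : (x : ι → F) ≠ 0 := fun e => h0 (by rw [show x = 0 from Subtype.ext e, map_zero])
    obtain ⟨y, hy⟩ : ∃ y : D 0, Δ x y ≠ 0 := by
      by_contra! hall
      refine hx0 ?_
      have e0 := hall (b 0)
      have e1 := hall (b 1)
      simp [Δ, hdb] at e0 e1
      rw [hrep x x.2, e0, e1, zero_smul, zero_smul, add_zero]
    have h2s : s + s ≠ 0 := by
      rcases hs with rfl | rfl <;> intro e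
      · exact h2 (by linear_combination e)
      · exact h2 (by linear_combination -e)
    have hne : f ((x : ι → F) + s • Φ x) ((y : ι → F) + s • Φ y) ≠ 0 := by
      rw [hform]; exact mul_ne_zero h2s hy
    exact ⟨⟨_, ⟨y, rfl⟩, fun e => hne (orth_comm hf e)⟩, ⟨_, ⟨y, rfl⟩, hne⟩⟩
  refine ⟨![P 1, P (-1)], ⟨⟨le_rfl, two_pos, Fin.forall_fin_two.2 ?_, ?_, ?_⟩,
    Fin.forall_fin_two.2 ⟨hnd 1 (Or.inl rfl), hnd (-1) (Or.inr rfl)⟩, ?_⟩, ?_⟩
  · constructor <;>
      exact (LinearMap.finrank_range_of_inj (hinj _)).trans (hD.finrank_eq 0)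
  · rw [iSupIndep_pair (i := (0 : Fin 2)) (j := 1) (by decide) (fun k => by omega)]
    refine Submodule.disjoint_def.2 fun v hv hv' => ?_
    by_contra hv0
    obtain ⟨⟨w, ⟨y, rfl⟩, hw⟩, -⟩ := hnd 1 (Or.inl rfl) v hv hv0
    obtain ⟨x, rfl⟩ := hv'
    exact hw ((hform 1 (-1) y x).trans (by ring))
  · refine Submodule.eq_top_of_finrank_eq (le_antisymm (Submodule.finrank_le _) ?_)
    rw [Module.finrank_pi, hn]
    have hle : P 1 ⊔ P (-1) ≤ ⨆ i, (![P 1, P (-1)] : Fin 2 → _) i :=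
      sup_le (le_iSup (![P 1, P (-1)] : Fin 2 → _) 0) (le_iSup (![P 1, P (-1)] : Fin 2 → _) 1)
    refine le_trans ?_ (Submodule.finrank_mono hle)
    have h := Submodule.finrank_sup_add_finrank_inf_eq (P 1) (P (-1))
    have hbot : P 1 ⊓ P (-1) = ⊥ := (Submodule.eq_bot_iff _).2 fun v hv => by
      by_contra hv0
      obtain ⟨⟨w, ⟨y, rfl⟩, hw⟩, -⟩ := hnd 1 (Or.inl rfl) v hv.1 hv0
      obtain ⟨x, rfl⟩ := hv.2
      exact hw ((hform 1 (-1) y x).trans (by ring))
    rw [hbot, finrank_bot, LinearMap.finrank_range_of_inj (hinj 1),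
      LinearMap.finrank_range_of_inj (hinj (-1)), hD.finrank_eq 0] at h
    omega
  · intro i j hij
    fin_cases i <;> fin_cases j <;> first | exact absurd rfl hij | skip
    · rintro _ ⟨x, rfl⟩ _ ⟨y, rfl⟩
      exact (hform 1 (-1) x y).trans (by ring)
    · rintro _ ⟨x, rfl⟩ _ ⟨y, rfl⟩
      exact (hform (-1) 1 x y).trans (by ring)
  intro g hg hgf
  obtain ⟨π, hπ⟩ := hg
  have hgm : ∀ i, ∀ x ∈ D i, (g : Matrix ι ι F) *ᵥ x ∈ D (π i) := fun i x hx => by
    rw [← hπ i]; exact ⟨x, hx, Matrix.toLin'_apply _ _⟩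
  have hdet : ∀ (h : D 0 →ₗ[F] (ι → F)), (∀ x, h x ∈ D 0) →
      ∀ x y : D 0, Δ (h x) (h y) = Δ (h (b 0)) (h (b 1)) * Δ x y := by
    intro h hh x y
    have hh' : ∀ z : D 0, h z = d z 0 • h (b 0) + d z 1 • h (b 1) := fun z => by
      conv_lhs => rw [show z = d z 0 • b 0 + d z 1 • b 1 from Subtype.ext (hrep z z.2), map_add,
        map_smul, map_smul]
    have ex := hdlin (d x 0) (d x 1) _ _ (hh (b 0)) (hh (b 1))
    have ey := hdlin (d y 0) (d y 1) _ _ (hh (b 0)) (hh (b 1))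
    simp only [Δ, hh' x, hh' y, ex, ey]
    ring
  have hgm' : ∀ i j, π i = j → ∀ x ∈ D i, (g : Matrix ι ι F) *ᵥ x ∈ D j :=
    fun i j e => e ▸ hgm i
  suffices hkey : ∃ c : F, c ≠ 0 ∧ ∀ s : F, s = 1 ∨ s = -1 → ∀ v ∈ P s, (g : Matrix ι ι F) *ᵥ v ∈ P (s * c) by
    obtain ⟨c, hc, hmap⟩ := hkey
    rcases hpm c hc with rfl | rfl
    · refine ⟨1, Fin.forall_fin_two.2 ⟨?_, ?_⟩⟩ <;>
        refine Submodule.eq_of_le_of_finrank_eq ?_ (finrank_map_gl g _) <;>
        rintro _ ⟨v, hv, rfl⟩ <;> rw [Matrix.toLin'_apply]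
      · simpa using hmap 1 (Or.inl rfl) v hv
      · simpa using hmap (-1) (Or.inr rfl) v hv
    · refine ⟨Equiv.swap 0 1, Fin.forall_fin_two.2 ⟨?_, ?_⟩⟩ <;>
        refine Submodule.eq_of_le_of_finrank_eq ?_ ((finrank_map_gl g _).trans
          ((LinearMap.finrank_range_of_inj (hinj _)).trans (LinearMap.finrank_range_of_inj (hinj _)).symm)) <;>
        rintro _ ⟨v, hv, rfl⟩ <;> rw [Matrix.toLin'_apply]
      · simpa using hmap 1 (Or.inl rfl) v hv
      · simpa using hmap (-1) (Or.inr rfl) v hv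
  -- a linear map of the first plane compared with the pairing
  have hcmp : ∀ (h : D 0 →ₗ[F] (ι → F)), Function.Injective h → ∀ (hh : ∀ x, h x ∈ D 0),
      ∀ (k : D 0 → (ι → F)), (∀ y, k y ∈ D 1) → (∀ z y : D 0, f (h z) (k y) = Δ z y) →
      ∃ c : F, c ≠ 0 ∧ ∀ y : D 0, k y = c • Φ ⟨h y, hh y⟩ := by
    intro h hi hh k hk hfk
    have hsurj : ∀ w : D 0, ∃ z : D 0, h z = w := fun w => by
      have hinj' : Function.Injective (LinearMap.codRestrict (D 0) h hh) := fun a b e =>
        hi (congrArg Subtype.val e)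
      obtain ⟨z, hz⟩ := (LinearMap.injective_iff_surjective.1 hinj') w
      exact ⟨z, congrArg Subtype.val hz⟩
    set K := Δ (h (b 0)) (h (b 1)) with hK
    have hK0 : K ≠ 0 := fun h0 => by
      obtain ⟨z0, e0⟩ := hsurj (b 0)
      obtain ⟨z1, e1⟩ := hsurj (b 1)
      have := hdet h hh z0 z1
      rw [e0, e1, ← hK, h0, zero_mul, hΔb] at this
      exact one_ne_zero this
    refine ⟨K⁻¹, inv_ne_zero hK0, fun y => huniq _ (hk y) _ ((D 1).smul_mem _ (hΦm _)) fun x hx => ?_⟩
    obtain ⟨z, hz⟩ := hsurj ⟨x, hx⟩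
    change h z = x at hz
    subst hz
    rw [hf.bilinear.smul_right, hfk, hΦ _ hx, hdet h hh z y, ← hK, inv_mul_cancel_left₀ hK0]
  have hπ01 : (π 0 = 0 ∧ π 1 = 1) ∨ (π 0 = 1 ∧ π 1 = 0) := by
    have h1 := π.injective.ne (show (0 : Fin 2) ≠ 1 by decide)
    revert h1
    generalize π 0 = a
    generalize π 1 = c
    revert a c
    decide
  have hsq : ∀ s : F, s = 1 ∨ s = -1 → s * s = 1 := by rintro s (rfl | rfl) <;> ring
  rcases hπ01 with ⟨p0, p1⟩ | ⟨p0, p1⟩
  · obtain ⟨c, hc0, hc⟩ := hcmp ((Matrix.toLin' (g : Matrix ι ι F)).comp (D 0).subtype)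
      (fun u v e => Subtype.ext (mulVec_inj g (by simpa using e)))
      (fun x => by simpa using hgm' 0 0 p0 x x.2)
      (fun y => (g : Matrix ι ι F) *ᵥ Φ y) (fun y => hgm' 1 1 p1 _ (hΦm y))
      (fun z y => by simp only [LinearMap.comp_apply, Matrix.toLin'_apply, Submodule.coe_subtype]
                     rw [hgf, hΦ z z.2 y])
    refine ⟨c, hc0, ?_⟩
    rintro s hs _ ⟨x, rfl⟩
    refine ⟨⟨(g : Matrix ι ι F) *ᵥ x, hgm' 0 0 p0 x x.2⟩, ?_⟩
    have h := hc x
    simp only [LinearMap.comp_apply, Matrix.toLin'_apply, Submodule.coe_subtype] at h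
    simp only [LinearMap.add_apply, LinearMap.smul_apply, Submodule.coe_subtype, mulVec_add, mulVec_smul,
      h, smul_smul]
  · have hΦinj : Function.Injective Φ := fun x y e => hinj 0 (by
      simp only [LinearMap.add_apply, LinearMap.smul_apply, zero_smul, add_zero, Submodule.coe_subtype]
      by_contra hne
      obtain ⟨z, hz⟩ : ∃ z : D 0, Δ z (x - y : D 0) ≠ 0 := by
        by_contra! hall
        apply hne
        have e0 := hall (b 0)
        have e1 := hall (b 1)
        simp only [Δ, hdb] at e0 e1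
        norm_num at e0 e1
        have hz := hrep _ (x - y : D 0).2
        simp only [e0, e1, zero_smul, add_zero, Submodule.coe_sub] at hz
        exact sub_eq_zero.1 hz
      apply hz
      rw [← hΦ z z.2, map_sub, e, sub_self, zero_right hf])
    obtain ⟨c, hc0, hc⟩ := hcmp ((Matrix.toLin' (g : Matrix ι ι F)).comp Φ)
      (fun u v e => hΦinj (mulVec_inj g (by simpa using e)))
      (fun x => by simpa using hgm' 1 0 p1 _ (hΦm x))
      (fun y => (g : Matrix ι ι F) *ᵥ y) (fun y => hgm' 0 1 p0 y y.2)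
      (fun z y => by
        simp only [LinearMap.comp_apply, Matrix.toLin'_apply]
        rw [hgf, hf.skew, hΦ y y.2 z]; simp only [Δ]; ring)
    refine ⟨c, hc0, ?_⟩
    rintro s hs _ ⟨x, rfl⟩
    have hx : (g : Matrix ι ι F) *ᵥ Φ x ∈ D 0 := hgm' 1 0 p1 _ (hΦm x)
    refine ⟨s • ⟨_, hx⟩, ?_⟩
    have h := hc x
    simp only [LinearMap.comp_apply, Matrix.toLin'_apply] at h
    simp only [LinearMap.add_apply, LinearMap.smul_apply, Submodule.coe_subtype, mulVec_add, mulVec_smul,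
      h, map_smul, smul_smul, Submodule.coe_smul]
    rw [smul_add, smul_smul, ← mul_assoc, hsq s hs, one_mul, add_comm]

open ThreeFrame in
/-- Over three elements the normaliser of a quadratic subfield that is not self-adjoint is not
maximal. -/
theorem not_maximal_field_three (hf : Geo.IsSymplecticForm f) (hn : Fintype.card ι = 4)
    (hq : Fintype.card F = 3)
    (hI : ∀ g, g ∈ I ↔ ∀ u v, f ((g : Matrix ι ι F) *ᵥ u) ((g : Matrix ι ι F) *ᵥ v) = f u v)
    {K : Subalgebra F (Matrix ι ι F)} (hK : Geo.IsFieldSubalgebra 2 K)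
    (hKc : Geo.IsAdjointClosedFor f K) (hns : ¬ Geo.IsSelfAdjointFor f K) :
    ¬ Geo.IsMaximalIn I (Geo.subalgebraNormalizer K ⊓ I) := by
  classical
  haveI : Nonempty ι := Fintype.card_pos_iff.1 (by omega)
  let e : ZMod 3 ≃+* F := ZMod.ringEquivOfPrime F Nat.prime_three hq
  have h2 : (2 : F) ≠ 0 := fun h => by
    have h' : e 2 = e 0 := by rw [map_ofNat, map_zero, h]
    exact absurd (e.injective h') (by decide)
  have hr := rform_of_symplectic hf
  have hpm : ∀ c : F, c ≠ 0 → c = 1 ∨ c = -1 := fun c hc => by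
    obtain ⟨x, rfl⟩ := e.surjective c
    have : ∀ x : ZMod 3, x = 0 ∨ x = 1 ∨ x = -1 := by decide
    rcases this x with rfl | rfl | rfl
    · exact absurd (map_zero e) hc
    · exact Or.inl (map_one e)
    · exact Or.inr (by rw [map_neg, map_one])
  have hadj_symm : ∀ {X Y : Matrix ι ι F}, IsAdj f X Y → IsAdj f Y X := fun h u v => by
    rw [hf.skew, ← h v u, ← hf.skew]
  -- a square root of minus one with adjoint its negative
  obtain ⟨k, hk, hkns⟩ : ∃ k ∈ K, ¬ IsAdj f k k := by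
    by_contra! hall
    exact hns fun k hk => hall k hk
  obtain ⟨k', hk', hkk'⟩ := hKc k hk
  set i := k - k' with hi
  have hiK : i ∈ K := K.sub_mem hk hk'
  have hi0 : i ≠ 0 := fun h => hkns (by rw [hi, sub_eq_zero] at h; rw [← h] at hkk'; exact hkk')
  have hia : IsAdj f i (-i) := fun u v => by
    rw [hi, neg_sub, sub_mulVec, sub_mulVec, sub_right hf, ← hkk', ← hadj_symm hkk']
    have h := hf.bilinear.add_left (k *ᵥ u - k' *ᵥ u) (k' *ᵥ u) v
    rw [sub_add_cancel] at h
    linear_combination -h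
  have hisa : IsAdj f (i * i) (i * i) := fun u v => by
    rw [← mulVec_mulVec, hia, hia, ← mulVec_mulVec, neg_mulVec, neg_mulVec, mulVec_neg, neg_neg]
  obtain ⟨a, ha⟩ : ∃ a : F, i * i = a • (1 : Matrix ι ι F) := by
    by_contra hno
    apply hns
    have hli : LinearIndependent F ![(1 : Matrix ι ι F), i * i] := by
      rw [LinearIndependent.pair_iff' one_ne_zero]
      exact fun a h => hno ⟨a, h.symm⟩
    have hspan : Submodule.span F (Set.range ![(1 : Matrix ι ι F), i * i]) = Subalgebra.toSubmodule K := by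
      refine Submodule.eq_of_le_of_finrank_eq (Submodule.span_le.2 ?_) ?_
      · rintro _ ⟨j, rfl⟩; fin_cases j
        · exact K.one_mem
        · exact K.mul_mem hiK hiK
      · rw [finrank_span_eq_card hli, Fintype.card_fin]
        exact hK.finrank_eq.symm
    intro x hx
    have hx' : x ∈ Submodule.span F (Set.range ![(1 : Matrix ι ι F), i * i]) := hspan ▸ hx
    obtain ⟨c, rfl⟩ := (Submodule.mem_span_range_iff_exists_fun F).1 hx'
    intro u v
    simp only [Fin.sum_univ_two, Matrix.cons_val_zero, Matrix.cons_val_one, add_mulVec, smul_mulVec,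
      one_mulVec, hf.bilinear.add_left, hf.bilinear.smul_left, hf.bilinear.add_right,
      hf.bilinear.smul_right, hisa u v]
  have hfield : ∀ {x y : Matrix ι ι F}, x ∈ K → y ∈ K → x * y = 0 → x = 0 ∨ y = 0 := by
    intro x y hx hy hxy
    by_contra! hne
    obtain ⟨z, -, hz⟩ := hK.inv x hx hne.1
    refine hne.2 ?_
    have hzx : z * x = 1 := mul_eq_one_comm.1 hz
    rw [← one_mul y, ← hzx, mul_assoc, hxy, mul_zero]
  have hi2 : i * i = -1 := by
    rcases eq_or_ne a 0 with rfl | ha0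
    · rcases hfield hiK hiK (by rw [ha, zero_smul]) with h | h <;> exact absurd h hi0
    rcases hpm a ha0 with rfl | rfl
    · exfalso
      rw [one_smul] at ha
      have hs : ∃ s : F, i = s • (1 : Matrix ι ι F) := by
        rcases hfield (K.sub_mem hiK K.one_mem) (K.add_mem hiK K.one_mem)
          (by rw [sub_mul, mul_add, one_mul, mul_one, ha]; abel) with h | h
        · exact ⟨1, by rw [one_smul]; exact sub_eq_zero.1 h⟩
        · exact ⟨-1, by rw [neg_one_smul]; exact eq_neg_of_add_eq_zero_left h⟩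
      obtain ⟨s, hs⟩ := hs
      obtain ⟨v, w, hvw⟩ := IsNondegenerateForm.exists_ne Fintype.card_pos hf.nondegenerate
      have h := hia v w
      rw [hs, neg_mulVec, smul_mulVec, smul_mulVec, one_mulVec, one_mulVec, hf.bilinear.smul_left,
        ← neg_smul, hf.bilinear.smul_right] at h
      have hs0 : s = 0 := (mul_eq_zero.1 (show (2 : F) * s = 0 from
        mul_right_cancel₀ hvw (by linear_combination h))).resolve_left h2
      exact hi0 (by rw [hs, hs0, zero_smul])
    · rw [ha, neg_one_smul]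
  have hii : ∀ v : ι → F, i *ᵥ (i *ᵥ v) = -v := fun v => by
    rw [mulVec_mulVec, hi2, neg_mulVec, one_mulVec]
  have hroot : ∀ y ∈ K, y * y = -1 → y = i ∨ y = -i := fun y hy hy2 => by
    rcases hfield (K.sub_mem hy hiK) (K.add_mem hy hiK)
      (by rw [sub_mul, mul_add, mul_add, hy2, hi2, hK.comm y hy i hiK]; abel) with h | h
    · exact Or.inl (sub_eq_zero.1 h)
    · exact Or.inr (eq_neg_of_add_eq_zero_left h)
  -- an orthonormal basis over the subfield
  have hfi : ∀ u v, f (i *ᵥ u) (i *ᵥ v) = f u v := fun u v => by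
    rw [hia, neg_mulVec, hii, neg_neg]
  have hBsym : ∀ u v, f (i *ᵥ v) u = f (i *ᵥ u) v := fun u v => by
    rw [hia, neg_mulVec, ← neg_one_smul F, hf.bilinear.smul_right, hf.skew v]; ring
  have hunit : ∀ W : Submodule F (ι → F), (∀ v ∈ W, i *ᵥ v ∈ W) →
      (∃ u ∈ W, ∃ v ∈ W, f u v ≠ 0) → ∃ e₁ ∈ W, f (i *ᵥ e₁) e₁ = 1 := by
    intro W hW ⟨u, hu, v, hv, huv⟩
    obtain ⟨x, hx, hx0⟩ : ∃ x ∈ W, f (i *ᵥ x) x ≠ 0 := by
      by_contra! hall
      have h := hall _ (W.add_mem (hW u hu) hv)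
      rw [mulVec_add, hf.bilinear.add_left, hf.bilinear.add_right, hf.bilinear.add_right,
        hall _ (hW u hu), hall v hv, hBsym (i *ᵥ u) v, hii, ← neg_one_smul F,
        hf.bilinear.smul_left] at h
      exact huv ((mul_eq_zero.1 (show (2 : F) * f u v = 0 by linear_combination -h)).resolve_left h2)
    rcases hpm _ hx0 with h1 | h1
    · exact ⟨x, hx, h1⟩
    · refine ⟨x + i *ᵥ x, W.add_mem hx (hW x hx), ?_⟩
      simp only [mulVec_add, hii, ← neg_one_smul F x, hf.bilinear.add_left, hf.bilinear.add_right,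
        hf.bilinear.smul_left, hf.alternating, hf.skew x (i *ᵥ x), h1]
      have h3' : (3 : F) = 0 := by
        have : e 3 = e 0 := congrArg e (by decide)
        rwa [map_ofNat, map_zero] at this
      linear_combination -h3'
  obtain ⟨v₀, w₀, hvw⟩ := IsNondegenerateForm.exists_ne Fintype.card_pos hf.nondegenerate
  obtain ⟨e₁, -, he₁⟩ := hunit ⊤ (fun _ _ => trivial) ⟨v₀, trivial, w₀, trivial, hvw⟩
  let L : (ι → F) →ₗ[F] F × F := (pair hf e₁).prod (pair hf (i *ᵥ e₁))
  have hWL : ∀ v, v ∈ LinearMap.ker L ↔ f v e₁ = 0 ∧ f v (i *ᵥ e₁) = 0 := fun v => by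
    simp [L, Prod.ext_iff]
  obtain ⟨e₂, he₂W, he₂⟩ := hunit (LinearMap.ker L) (fun v hv => by
      obtain ⟨a1, a2⟩ := (hWL v).1 hv
      refine (hWL _).2 ⟨?_, by rw [hfi]; exact a1⟩
      rw [hia, neg_mulVec, ← neg_one_smul F, hf.bilinear.smul_right, a2, mul_zero]) (by
    by_contra! hall
    obtain ⟨z, hz, hz0⟩ := Submodule.exists_mem_ne_zero_of_ne_bot (p := LinearMap.ker L) fun h => by
      have := LinearMap.finrank_le_finrank_of_injective (LinearMap.ker_eq_bot.1 h)
      simp at this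
      omega
    obtain ⟨u, hu⟩ := (hf.nondegenerate z hz0).1
    obtain ⟨z1, z2⟩ := (hWL z).1 hz
    -- project onto the complement
    let u' := u + f u (i *ᵥ e₁) • e₁ + (-(f u e₁)) • (i *ᵥ e₁)
    have hu' : u' ∈ LinearMap.ker L := (hWL u').2 ⟨by
      simp only [u', hf.bilinear.add_left, hf.bilinear.smul_left, hf.alternating, he₁]
      ring, by
      simp only [u', hf.bilinear.add_left, hf.bilinear.smul_left, hf.alternating,
        hf.skew e₁ (i *ᵥ e₁), he₁]
      ring⟩
    apply hu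
    have h := hall u' hu' z hz
    simp only [u', hf.bilinear.add_left, hf.bilinear.smul_left, hf.skew e₁ z, hf.skew (i *ᵥ e₁) z, z1,
      z2] at h
    linear_combination h)
  obtain ⟨p1, p2⟩ := (hWL e₂).1 he₂W
  let v : Fin 4 → (ι → F) := ![e₁, i *ᵥ e₁, e₂, i *ᵥ e₂]
  have hgram : ∀ r s, f (v r) (v s) = e (J0 r s) := by
    have q1 : f e₁ (i *ᵥ e₁) = -1 := by rw [hf.skew, he₁]
    have q2 : f e₂ (i *ᵥ e₂) = -1 := by rw [hf.skew, he₂]
    have q3 : f e₁ e₂ = 0 := orth_comm hf p1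
    have q4 : f (i *ᵥ e₁) e₂ = 0 := orth_comm hf p2
    have q5 : f (i *ᵥ e₂) e₁ = 0 := by rw [hBsym, q4]
    have q6 : f e₁ (i *ᵥ e₂) = 0 := orth_comm hf q5
    have e2 : e (2 : ZMod 3) = -1 := by
      rw [show (2 : ZMod 3) = -1 by decide, map_neg, map_one]
    intro r s
    fin_cases r <;> fin_cases s <;>
      simp [v, J0, hf.alternating, he₁, he₂, q1, q2, q3, q4, q5, q6, p1, p2, hfi, e2]
  have hli : LinearIndependent F v := by
    rw [Fintype.linearIndependent_iff]
    intro c hc j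
    have hsum : ∀ s, ∑ r, c r * e (J0 r s) = 0 := fun s => by
      have h := congrArg (fun u => f u (v s)) hc
      simpa [hr.sesq.sum_left, hf.bilinear.smul_left, hgram, zero_left hf] using h
    have h0 := hsum 0
    have h1 := hsum 1
    have h4 := hsum 2
    have h5 := hsum 3
    simp [Fin.sum_univ_four, J0] at h0 h1 h4 h5
    have e2 : e (2 : ZMod 3) ≠ 0 := (map_ne_zero e).2 (by decide)
    fin_cases j <;> simp_all
  let b : Basis (Fin 4) F (ι → F) := basisOfLinearIndependentOfCardEqFinrank hli (by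
    rw [Module.finrank_pi, hn, Fintype.card_fin])
  have hb : ∀ r, b r = v r := fun r => by simp [b]
  let Ψ : M4 ≃+* Matrix ι ι F :=
    e.mapMatrix.trans ((Matrix.toLinAlgEquiv b).trans LinearMap.toMatrixAlgEquiv').toRingEquiv
  have hΨ : ∀ (M : M4) (s : Fin 4), Ψ M *ᵥ v s = ∑ r, e (M r s) • v r := fun M s => by
    have h : Ψ M = LinearMap.toMatrix' (Matrix.toLinAlgEquiv b (M.map e)) := rfl
    rw [h, ← Matrix.toLin'_apply, Matrix.toLin'_toMatrix', ← hb s, Matrix.toLinAlgEquiv_self]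
    simp [hb]
  have hext : ∀ X Y : Matrix ι ι F, (∀ r s, f (X *ᵥ v r) (v s) = f (v r) (Y *ᵥ v s)) → IsAdj f X Y := by
    intro X Y h u w
    rw [← b.sum_repr u, ← b.sum_repr w]
    simp only [mulVec_sum, mulVec_smul, hr.sesq.sum_left, hr.sesq.sum_right, hf.bilinear.smul_left,
      hf.bilinear.smul_right, hb, h]
  have hadjΨ : ∀ M M' : M4, Mᵀ * J0 = J0 * M' → IsAdj f (Ψ M) (Ψ M') := fun M M' h => hext _ _ fun r s => by
    have h' := congrArg (fun N : M4 => e (N r s)) h
    simp only [Matrix.mul_apply, Matrix.transpose_apply, map_sum, map_mul] at h'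
    simp only [hΨ, hr.sesq.sum_left, hr.sesq.sum_right, hf.bilinear.smul_left, hf.bilinear.smul_right,
      hgram]
    rw [h']
    exact Finset.sum_congr rfl fun _ _ => mul_comm _ _
  have hadjΨ' : ∀ M M' : M4, IsAdj f (Ψ M) (Ψ M') → Mᵀ * J0 = J0 * M' := fun M M' h => by
    ext r s
    have h' := h (v r) (v s)
    simp only [hΨ, hr.sesq.sum_left, hr.sesq.sum_right, hf.bilinear.smul_left, hf.bilinear.smul_right,
      hgram] at h'
    apply e.injective
    simp only [Matrix.mul_apply, Matrix.transpose_apply, map_sum, map_mul]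
    rw [h']
    exact Finset.sum_congr rfl fun _ _ => mul_comm _ _
  have hisom : ∀ M : M4, Mᵀ * J0 * M = J0 → ∀ u w, f (Ψ M *ᵥ u) (Ψ M *ᵥ w) = f u w := by
    intro M h u w
    obtain ⟨M', hM'⟩ : ∃ M', M' = -(J0 * (Mᵀ * J0)) := ⟨_, rfl⟩
    have e1 : Mᵀ * J0 = J0 * M' := by rw [hM', mul_neg, ← mul_assoc, facts.1, neg_one_mul, neg_neg]
    rw [hadjΨ M M' e1 u, mulVec_mulVec, ← map_mul, hM', neg_mul, mul_assoc, h, facts.1, neg_neg,
      map_one, one_mulVec]
  have hiΨ : Ψ J0 = i := by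
    refine Matrix.toLin'.injective (b.ext fun r => ?_)
    rw [Matrix.toLin'_apply, Matrix.toLin'_apply, hb, hΨ]
    have e2 : e (2 : ZMod 3) = -1 := by
      rw [show (2 : ZMod 3) = -1 by decide, map_neg, map_one]
    fin_cases r <;> simp [Fin.sum_univ_four, J0, v, hii, e2]
  -- the stabiliser of the frame
  let S : Matrix ι ι F → Prop := fun X => ∃ Y ∈ frame, Ψ Y = X
  let G : Subgroup (GL ι F) :=
    { carrier := {g | g ∈ I ∧ ∀ X, S X → S (g.val * X * (g⁻¹ : GL ι F).val) ∧
        S ((g⁻¹ : GL ι F).val * X * g.val)}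
      one_mem' := ⟨I.one_mem, fun X hX => by simpa using hX⟩
      mul_mem' := fun {g h} hg hh => ⟨I.mul_mem hg.1 hh.1, fun X hX => by
        constructor
        · have := (hg.2 _ (hh.2 X hX).1).1
          simpa [mul_assoc] using this
        · have := (hh.2 _ (hg.2 X hX).2).2
          simpa [mul_assoc] using this⟩
      inv_mem' := fun {g} hg => ⟨I.inv_mem hg.1, fun X hX => by
        rw [inv_inv]; exact ⟨(hg.2 X hX).2, (hg.2 X hX).1⟩⟩ }
  have hmk : ∀ (M M' : M4) (h : M * M' = 1) (h' : M' * M = 1), ∃ g : GL ι F,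
      g.val = Ψ M ∧ (g⁻¹ : GL ι F).val = Ψ M' := fun M M' h h' =>
    ⟨⟨Ψ M, Ψ M', by rw [← map_mul, h, map_one], by rw [← map_mul, h', map_one]⟩, rfl, rfl⟩
  obtain ⟨fJJ, fJT, fg1, fg2, fT1, fT2, fgi, fTi, fgf, ⟨fgn1, fgn2⟩, ⟨Y₀, hY₀, hY₀'⟩, fY⟩ := facts
  obtain ⟨g, hg, hg'⟩ := hmk g0 g0' fg1 fg2
  obtain ⟨T, hTv, hTv'⟩ := hmk T0 T0' fT1 fT2
  have hgG : g ∈ G := ⟨(hI g).2 fun u w => by rw [hg]; exact hisom _ fgi u w, by
    rintro _ ⟨Y, hY, rfl⟩
    exact ⟨⟨_, (fgf Y hY).1, by rw [map_mul, map_mul, hg, hg']⟩,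
      ⟨_, (fgf Y hY).2, by rw [map_mul, map_mul, hg, hg']⟩⟩⟩
  have hle : Geo.subalgebraNormalizer K ⊓ I ≤ G := by
    have hone : ∀ h ∈ Geo.subalgebraNormalizer K ⊓ I, ∀ X, S X →
        S (h.val * X * (h⁻¹ : GL ι F).val) := by
      rintro h ⟨hhK, hhI⟩ _ ⟨Y, hY, rfl⟩
      have hiso := (hI h).1 hhI
      obtain ⟨yA, y2, y1, yn, yJ⟩ := fY Y hY
      obtain ⟨Z, hZ⟩ := Ψ.surjective (h.val * Ψ Y * (h⁻¹ : GL ι F).val)
      refine ⟨Z, ?_, hZ⟩
      have hc : ∀ X : Matrix ι ι F, (h⁻¹ : GL ι F).val * (h.val * X) = X := fun X => by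
        rw [← mul_assoc, Units.inv_mul, one_mul]
      have hconj : ∀ X X' : Matrix ι ι F, (h.val * X * (h⁻¹ : GL ι F).val) *
          (h.val * X' * (h⁻¹ : GL ι F).val) = h.val * (X * X') * (h⁻¹ : GL ι F).val := fun X X' => by
        simp only [mul_assoc, hc]
      have hcadj : ∀ X X', IsAdj f X X' → IsAdj f (h.val * X * (h⁻¹ : GL ι F).val)
          (h.val * X' * (h⁻¹ : GL ι F).val) := fun X X' hX u w => by
        simp only [← mulVec_mulVec]
        conv_lhs => rw [← mulVec_inv_mulVec h w]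
        conv_rhs => rw [← mulVec_inv_mulVec h u]
        rw [hiso, hiso, hX]
      have hii' : h.val * i * (h⁻¹ : GL ι F).val = i ∨ h.val * i * (h⁻¹ : GL ι F).val = -i :=
        hroot _ ((hhK i).1 hiK) (by rw [hconj, hi2]; simp)
      have hA : Zᵀ * J0 = J0 * Z := hadjΨ' Z Z (by rw [hZ]; exact hcadj _ _ (hadjΨ Y Y yA))
      have hZJ : Z * J0 = J0 * Z ∨ Z * J0 = -(J0 * Z) := by
        have h1 : h.val * (Ψ Y * i) * (h⁻¹ : GL ι F).val = h.val * (i * Ψ Y) * (h⁻¹ : GL ι F).val ∨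
            h.val * (Ψ Y * i) * (h⁻¹ : GL ι F).val = -(h.val * (i * Ψ Y) * (h⁻¹ : GL ι F).val) := by
          rw [← hiΨ, ← map_mul, ← map_mul]
          rcases yJ with e' | e'
          · exact Or.inl (by rw [e'])
          · exact Or.inr (by rw [e', map_neg, mul_neg, neg_mul])
        rw [← hconj, ← hconj, ← hZ] at h1
        rcases hii' with e' | e' <;> rw [e', ← hiΨ] at h1
        · simp only [← map_mul, ← map_neg, Ψ.injective.eq_iff] at h1
          exact h1
        · simp only [mul_neg, neg_mul, neg_inj, neg_neg, ← map_mul, ← map_neg, Ψ.injective.eq_iff] at h1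
          exact h1.imp_right fun e'' => by rw [← e'', neg_neg]
      have hZ2 : Z * Z = 1 := Ψ.injective (by rw [map_mul, hZ, hconj, ← map_mul, y2, map_one]; simp)
      rcases mem_frame hA hZJ hZ2 with rfl | rfl | hm
      · exfalso
        have h1 : Ψ Y = Ψ 1 := by
          have := congrArg (fun X => (h⁻¹ : GL ι F).val * X * h.val) hZ
          simpa [mul_assoc] using this.symm
        exact y1 (Ψ.injective h1)
      · exfalso
        have h1 : Ψ Y = Ψ (-1) := by
          have := congrArg (fun X => (h⁻¹ : GL ι F).val * X * h.val) hZ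
          simpa [mul_assoc] using this.symm
        exact yn (Ψ.injective h1)
      · exact hm
    intro h hh
    exact ⟨hh.2, fun X hX => ⟨hone h hh X hX,
      by simpa using hone h⁻¹ (Subgroup.inv_mem _ hh) X hX⟩⟩
  intro hmax
  rcases hmax.2 G hle (fun x hx => hx.1) with heq | heq
  · have hgK : g ∈ Geo.subalgebraNormalizer K := (show g ∈ _ ⊓ I from heq ▸ hgG).1
    have := hroot _ ((hgK i).1 hiK) (by
      rw [hg, hg', ← hiΨ, ← map_mul, ← map_mul, ← map_mul]
      rw [show g0 * J0 * g0' * (g0 * J0 * g0') = -1 by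
        rw [show g0 * J0 * g0' * (g0 * J0 * g0') = g0 * J0 * (g0' * g0) * J0 * g0' by simp [mul_assoc],
          fg2, mul_one, mul_assoc g0 J0 J0, fJJ, mul_neg, mul_one, neg_mul, fg1]]
      simp)
    rw [hg, hg', ← hiΨ, ← map_mul, ← map_mul, ← map_neg, Ψ.injective.eq_iff, Ψ.injective.eq_iff] at this
    exact this.elim fgn1 fgn2
  · have hTG : T ∈ G := heq ▸ (hI T).2 fun u w => by rw [hTv]; exact hisom _ fTi u w
    obtain ⟨Y', hY', e'⟩ := (hTG.2 _ ⟨Y₀, hY₀, rfl⟩).1
    rw [hTv, hTv', ← map_mul, ← map_mul, Ψ.injective.eq_iff] at e'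
    exact hY₀' (e' ▸ hY')

end CfsgLib.AschFour
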