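import Mathlib
import Cfsg.Agent.Eq.Def_GeometricClasses
import Cfsg.Agent.Aschbacher.UnitaryMaximal
import Cfsg.Agent.AschFour.Common
import Cfsg.Agent.AschLinear.Dim4Monomial

/-!
The normaliser of a symplectic-type two-group in the unitary group of dimension four, and the
monomial group over nine elements.
-/

set_option autoImplicit false
set_option linter.unusedSectionVars false

namespace CfsgLib.AschFour

open Cfsg.Geo Module CfsgLib.AschPrime CfsgLib.Aschbacher.Unitary CfsgLib.AschLinear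
open CfsgLib.AschLinear.Pauli
open scoped Matrix MatrixGroups

variable {F : Type*} [Field F] [Fintype F] {q : ℕ}
variable (hF : Fintype.card F = q ^ 2)
include hF

/-- The special unitary group does not normalise an absolutely irreducible group that is commutative
modulo scalars. -/
theorem unitary_not_le_normalizer {R : Subgroup (GL (Fin 4) F)}
    (habs : ActsAbsolutelyIrreducibly (matrixSet R))
    (hcomm : ∀ x ∈ R, ∀ y ∈ R, x * y * x⁻¹ * y⁻¹ ∈ scalars (Fin 4) F) :
    ¬ Cfsg.GU 4 F q ⊓ specialLinear (Fin 4) F ≤ subgroupNormalizer R := by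
  obtain ⟨c, hc0, hc⟩ := exists_trace_zero hF
  obtain ⟨v, hv0, hv⟩ := exists_isotropic hF (n := 4) (by norm_num)
  refine not_le_subgroupNormalizer (by simp) habs hcomm (utransv_mem hF hv hc) hv0
    (φ := c • hermDual q v) (fun h => ?_) (by simp [hv]) fun w => by
      rw [utransv_mulVec]; simp
  refine hv0 (herm_nondeg' hF fun y => ?_)
  have h1 := LinearMap.congr_fun h y
  simpa [hc0] using h1

/-- Over nine elements the stabiliser of four orthogonal lines normalises a symplectic-type group. -/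
theorem lines_three (hq : q = 3) {H : Subgroup (GL (Fin 4) F)}
    (hH : IsMaximalIn (Cfsg.GU 4 F q ⊓ specialLinear (Fin 4) F) H)
    {D : Fin 4 → Submodule F (Fin 4 → F)}
    (hD : IsNondegenerateMDecomposition (Cfsg.hermForm 4 F q) 1 D) (hle : H ≤ decompositionStabilizer D) :
    ∃ (p : ℕ) (R : Subgroup (GL (Fin 4) F)), p.Prime ∧ q = p ∧ p % 4 = 3 ∧
      IsSymplecticTypeGroup 2 R ∧ ActsAbsolutelyIrreducibly (matrixSet R) ∧
      R ≤ similarityGroup (Cfsg.hermForm 4 F q) ∧ Nat.card R = 64 ∧ Nat.card (Subgroup.center R) = 4 ∧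
      H = subgroupNormalizer R ⊓ (Cfsg.GU 4 F q ⊓ specialLinear (Fin 4) F) := by
  classical
  subst hq
  have hHU : H ≤ Cfsg.GU 4 F 3 := hH.1.le.trans inf_le_left
  have hHSL : H ≤ specialLinear (Fin 4) F := hH.1.le.trans inf_le_right
  have h2 : (2 : F) ≠ 0 := by
    intro h2
    haveI : CharP F 2 := CharTwo.of_one_ne_zero_of_two_eq_zero one_ne_zero h2
    have hd : 2 ∣ Fintype.card F := (CharP.cast_eq_zero_iff F 2 _).1 (FiniteField.cast_card_eq_zero F)
    rw [hF] at hd
    norm_num at hd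
  obtain ⟨a, ha⟩ : IsSquare (-1 : F) := by
    rw [FiniteField.isSquare_neg_one_iff, hF]; norm_num
  have ha0 : a ≠ 0 := fun h0 => by
    rw [h0, mul_zero, neg_eq_zero] at ha
    exact one_ne_zero ha
  let i : Fˣ := Units.mk0 a ha0
  have hi : i * i = -1 := Units.ext (by simp [i, ← ha])
  -- an orthonormal basis
  obtain ⟨e, he, hee, horth⟩ := frame_basis hF hD
  choose s hs using fun k => exists_norm_eq hF (a := (Cfsg.hermForm 4 F 3 (e k) (e k))⁻¹)
    (by rw [inv_pow, herm_self_fixed hF])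
  let v : Fin 4 → (Fin 4 → F) := fun k => s k • e k
  have hvv : ∀ k l, Cfsg.hermForm 4 F 3 (v k) (v l) = if k = l then 1 else 0 := by
    intro k l
    simp only [v, herm_smul_left, herm_smul_right hF]
    split
    · subst l
      rw [← mul_assoc, ← pow_succ, hs, inv_mul_cancel₀ (hee k)]
    · rw [horth k l ‹_›]; ring
  have hvD : ∀ k, v k ∈ D k := fun k => (D k).smul_mem _ (he k)
  have hv0 : ∀ k, v k ≠ 0 := fun k h => one_ne_zero (α := F) (by
    have h1 := hvv k k
    rw [h, herm_zero_left, if_pos rfl] at h1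
    exact h1.symm)
  have hli : LinearIndependent F v := by
    refine Fintype.linearIndependent_iff.2 fun g hg k => ?_
    have h1 := congrArg (fun x => Cfsg.hermForm 4 F 3 x (v k)) hg
    simp [Fin.sum_univ_four, herm_add_left, herm_smul_left, hvv, herm_zero_left] at h1
    fin_cases k <;> simpa using h1
  let b₀ : Basis (Fin 4) F (Fin 4 → F) := basisOfLinearIndependentOfCardEqFinrank hli (by simp)
  have hb₀ : ∀ k, b₀ k = v k := fun k => by simp [b₀]
  have hspan : ∀ k, D k = Submodule.span F {v k} := fun k =>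
    (Submodule.eq_of_le_of_finrank_eq ((Submodule.span_singleton_le_iff_mem _ _).2 (hvD k))
      (by rw [finrank_span_singleton (hv0 k), hD.decomp.finrank_eq k])).symm
  have hmono : CfsgLib.Aschbacher.IsMonomial H b₀ := by
    intro h hh
    obtain ⟨σ, hσ⟩ := hle hh
    have hk : ∀ k, ∃ c : F, h.val *ᵥ b₀ k = c • b₀ (σ k) := fun k => by
      have hm : h.val *ᵥ v k ∈ D (σ k) := by
        rw [← hσ k]; exact ⟨v k, hvD k, by simp⟩
      rw [hspan] at hm
      obtain ⟨c, hc⟩ := Submodule.mem_span_singleton.1 hm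
      exact ⟨c, by rw [hb₀, hb₀, hc]⟩
    choose c hc using hk
    exact ⟨σ, c, hc⟩
  have h4 : ∀ h ∈ H, ∀ (π : Fin 4 ≃ Fin 4) (c : Fin 4 → F),
      (∀ k, h.val *ᵥ b₀ k = c k • b₀ (π k)) → ∀ k, c k ^ 4 = 1 := by
    intro h hh π c hc k
    have h1 := mem_GU.1 (hHU hh) (b₀ k) (b₀ k)
    rw [hc k, herm_smul_left, herm_smul_right hF, hb₀, hb₀, hvv, hvv, if_pos rfl, if_pos rfl,
      mul_one] at h1
    linear_combination h1
  obtain ⟨x₁, x₂, y₁, y₂, hQ, hnorm, hgen⟩ :=
    exists_isQuad_of_monomial hi h2 (by simp) hmono hHSL h4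
  have hsum : ∀ a b : Fin 4 → F, Cfsg.hermForm 4 F 3 (∑ k, a k • v k) (∑ k, b k • v k) =
      ∑ k, a k * b k ^ 3 := fun a b => by
    simp [Fin.sum_univ_four, herm_add_left, herm_add_right hF, herm_smul_left, herm_smul_right hF, hvv]
    ring
  have hherm : ∀ u : GL (Fin 4) F, (∃ (π : Fin 4 ≃ Fin 4) (c : Fin 4 → F),
      (∀ k, c k = 1 ∨ c k = -1) ∧ ∀ k, u.val *ᵥ b₀ k = c k • b₀ (π k)) → u ∈ Cfsg.GU 4 F 3 := by
    rintro u ⟨π, c, hc, hu⟩
    refine mem_GU.2 fun x y => ?_
    have hx : ∀ x, u.val *ᵥ x = ∑ k, (b₀.repr x (π.symm k) * c (π.symm k)) • v k := fun x => by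
      conv_lhs => rw [← b₀.sum_repr x]
      rw [Matrix.mulVec_sum]
      conv_rhs => rw [← π.sum_comp]
      exact Finset.sum_congr rfl fun k _ => by
        rw [Matrix.mulVec_smul, hu, smul_smul, π.symm_apply_apply, hb₀]
    have hrepr : ∀ x, x = ∑ k, b₀.repr x k • v k := fun x => by
      conv_lhs => rw [← b₀.sum_repr x]
      exact Finset.sum_congr rfl fun k _ => by rw [hb₀]
    conv_rhs => rw [hrepr x, hrepr y]
    rw [hx, hx, hsum, hsum, ← π.sum_comp]
    refine Finset.sum_congr rfl fun k _ => ?_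
    rw [π.symm_apply_apply]
    rcases hc k with h | h <;> rw [h] <;> ring
  refine ⟨3, grp i x₁ x₂ y₁ y₂, Nat.prime_three, rfl, rfl,
    ⟨Nat.prime_two, IsPGroup.of_card (n := 6) (by rw [hQ.card_grp]; norm_num),
      hQ.cyclic_of_characteristic, by rw [hQ.exponent_eq]; rfl⟩,
    hQ.absIrred, ?_, hQ.card_grp, hQ.card_center, ?_⟩
  · refine (Subgroup.closure_le _).2 ?_
    rintro u (rfl | hu)
    · refine ⟨i * i ^ 3, fun x y => ?_⟩
      simp only [sc_val, Matrix.smul_mulVec, Matrix.one_mulVec, herm_smul_left, herm_smul_right hF,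
        Units.val_mul, Units.val_pow_eq_pow_val]
      ring
    · exact ⟨1, fun x y => by rw [Units.val_one, one_mul]; exact mem_GU.1 (hherm u (hgen u hu)) x y⟩
  · refine eq_inf_of_isMaximalIn hH
      (fun h hh => hQ.mem_normalizer (hnorm h hh)) (unitary_not_le_normalizer hF hQ.absIrred ?_)
    intro x hx y hy
    rcases hQ.commSign_mem hx hy with h | h
    · refine (mem_scalars_iff _).2 ⟨1, ?_⟩
      rw [commSign_one.1 h]; simp [mul_assoc]
    · refine (mem_scalars_iff _).2 ⟨-1, ?_⟩
      have h' : x * y = sc (-1) * (y * x) := h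
      rw [h']; simp [mul_assoc, sc_val]

end CfsgLib.AschFour
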