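import Mathlib
import Cfsg.Agent.Eq.Def_GeometricClasses
import Cfsg.Agent.Aschbacher.UnitaryMaximal

/-!
Over two and three elements a pair of totally singular planes for the hermitian form in dimension four
carries a structure over the fixed field.
-/

set_option autoImplicit false
set_option linter.unusedSectionVars false

namespace CfsgLib.AschFour

open Cfsg.Geo Module CfsgLib.AschPrime CfsgLib.Aschbacher.Unitary
open scoped Matrix MatrixGroups

variable {F : Type*} [Field F] [Fintype F] {q : ℕ}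

/-- A group element mapping the basis to rational combinations, up to a scalar. -/
theorem mem_subfieldSubgroup_of_rational {ι : Type} [Fintype ι] [DecidableEq ι] {F₀ : Subfield F}
    {P g : GL ι F} {μ : F} (hμ : μ ≠ 0)
    (h : ∀ i j, μ * ((P⁻¹ * g * P : GL ι F) : Matrix ι ι F) i j ∈ F₀) :
    g ∈ subfieldSubgroup F₀ P := by
  classical
  set X : GL ι F := P⁻¹ * g * P with hX
  let K : Matrix ι ι F₀ := fun i j => ⟨μ * X.val i j, h i j⟩
  have hK : K.map (F₀.subtype : F₀ →+* F) = μ • X.val := rfl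
  have hdet : K.det ≠ 0 := by
    intro h0
    have h1 := RingHom.map_det (F₀.subtype : F₀ →+* F) K
    rw [h0, map_zero, RingHom.mapMatrix_apply, hK, Matrix.det_smul] at h1
    exact mul_ne_zero (pow_ne_zero _ hμ) (((Matrix.isUnit_iff_isUnit_det _).1 X.isUnit).ne_zero) h1.symm
  refine CfsgLib.Aschbacher.mem_subfieldSubgroup_iff.2
    ⟨Matrix.GeneralLinearGroup.mkOfDetNeZero K hdet, Units.mk0 μ⁻¹ (inv_ne_zero hμ), ?_⟩
  refine Units.ext ?_
  show X.val = K.map (F₀.subtype : F₀ →+* F) * Matrix.scalar ι μ⁻¹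
  rw [hK, Matrix.scalar_apply, ← Matrix.smul_one_eq_diagonal, Matrix.mul_smul, mul_one, smul_smul,
    inv_mul_cancel₀ hμ, one_smul]

variable (hF : Fintype.card F = q ^ 2)
include hF

/-- A pair of totally singular planes, when the non-zero elements of the fixed field are signs. -/
theorem pair_subfield (hK : ∀ c : F, c ≠ 0 → c ^ q = c → c * c = 1)
    {D : Fin 2 → Submodule F (Fin 4 → F)} (hD : IsMDecomposition 2 D)
    (hts : ∀ i, IsTotallySingularFor (Cfsg.hermForm 4 F q) (D i)) :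
    ∃ (F₀ : Subfield F) (P : GL (Fin 4) F) (ζ : F), Fintype.card F = Nat.card F₀ ^ 2 ∧ ζ ≠ 0 ∧
      ζ + ζ ^ q = 0 ∧ IsFormRationalStructure (Cfsg.hermForm 4 F q) F₀ ζ P ∧
      (∀ u : Fin 4 → F, (∀ i, u i ∈ F₀) → Cfsg.hermForm 4 F q
        ((P : Matrix (Fin 4) (Fin 4) F) *ᵥ u) ((P : Matrix (Fin 4) (Fin 4) F) *ᵥ u) = 0) ∧
      decompositionStabilizer D ⊓ (Cfsg.GU 4 F q ⊓ specialLinear (Fin 4) F) ≤ subfieldSubgroup F₀ P := by
  classical
  have hq0 : (0 : F) ^ q = 0 := zero_pow (q_pos hF).ne'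
  have htop : D 0 ⊔ D 1 = ⊤ := by
    rw [eq_top_iff, ← hD.iSup_eq_top]
    exact iSup_le (Fin.forall_fin_two.2 ⟨le_sup_left, le_sup_right⟩)
  have hdis : Disjoint (D 0) (D 1) := hD.indep.pairwiseDisjoint (by decide)
  let b := Module.finBasisOfFinrankEq F (D 0) (hD.finrank_eq 0)
  let d : (Fin 4 → F) → Fin 2 → F := fun x j => if hx : x ∈ D 0 then b.repr ⟨x, hx⟩ j else 0
  have hd : ∀ x (hx : x ∈ D 0) j, d x j = b.repr ⟨x, hx⟩ j := fun x hx j => dif_pos hx
  let Δ : (Fin 4 → F) → (Fin 4 → F) → F := fun x y => d x 0 * d y 1 - d x 1 * d y 0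
  have hrep : ∀ x ∈ D 0, x = d x 0 • (b 0 : Fin 4 → F) + d x 1 • (b 1 : Fin 4 → F) := fun x hx => by
    have e := congrArg Subtype.val (b.sum_repr ⟨x, hx⟩)
    rw [Fin.sum_univ_two] at e
    rw [hd x hx, hd x hx]
    exact e.symm
  have hdlin : ∀ (s t : F) x y, x ∈ D 0 → y ∈ D 0 → ∀ j, d (s • x + t • y) j = s * d x j + t * d y j :=
    fun s t x y hx hy j => by
      have e : (⟨s • x + t • y, add_mem ((D 0).smul_mem s hx) ((D 0).smul_mem t hy)⟩ : D 0) =
          s • ⟨x, hx⟩ + t • ⟨y, hy⟩ := rfl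
      rw [hd _ (add_mem ((D 0).smul_mem s hx) ((D 0).smul_mem t hy)), hd x hx, hd y hy]
      refine (congrArg (fun z : D 0 => b.repr z j) e).trans ?_
      simp only [map_add, map_smul, Finsupp.add_apply, Finsupp.smul_apply, smul_eq_mul]
  have hdb : ∀ i j, d (b i : Fin 4 → F) j = if i = j then 1 else 0 := fun i j => by
    rw [hd _ (b i).2]
    simp [Finsupp.single_apply]
  have hΔadd : ∀ x x' y : D 0, Δ ((x + x' : D 0) : Fin 4 → F) y = Δ x y + Δ x' y := fun x x' y => by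
    have e := hdlin 1 1 _ _ x.2 x'.2
    simp only [one_smul, one_mul] at e
    simp only [Δ, Submodule.coe_add, e]; ring
  have hΔsmul : ∀ (c : F) (x y : D 0), Δ ((c • x : D 0) : Fin 4 → F) y = c * Δ x y := fun c x y => by
    have e := hdlin c 0 _ _ x.2 x.2
    simp only [zero_smul, add_zero, zero_mul] at e
    simp only [Δ, Submodule.coe_smul, e]; ring
  have hskew : ∀ x y, Δ x y = - Δ y x := fun x y => by simp only [Δ]; ring
  have hΔb : Δ (b 0) (b 1) = 1 := by simp [Δ, hdb]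
  -- the antilinear pairing map
  have hpair : ∀ y ∈ D 0, ∃ z ∈ D 1, ∀ x ∈ D 0, (Cfsg.hermForm 4 F q) x z = Δ x y := by
    intro y hy
    obtain ⟨φ, hφ⟩ := LinearMap.exists_extend (p := D 0)
      ({ toFun := fun x : D 0 => Δ x y
         map_add' := fun x x' => hΔadd x x' ⟨y, hy⟩
         map_smul' := fun c x => hΔsmul c x ⟨y, hy⟩ } : D 0 →ₗ[F] F)
    obtain ⟨w, hw⟩ : ∃ w, ∀ x, (Cfsg.hermForm 4 F q) x w = φ x := by
      refine ⟨fun i => φ (Pi.single i 1) ^ q, fun x => ?_⟩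
      conv_rhs => rw [pi_eq_sum_univ' x, map_sum]
      simp only [Cfsg.hermForm, q_pow_pow hF, map_smul, smul_eq_mul]
    obtain ⟨w0, hw0, w1, hw1, rfl⟩ := Submodule.mem_sup.1 (htop ▸ Submodule.mem_top (x := w))
    refine ⟨w1, hw1, fun x hx => ?_⟩
    have h1 := hw x
    rw [herm_add_right hF, hts 0 x hx w0 hw0, zero_add] at h1
    rw [h1]
    exact congrArg (fun ψ : D 0 →ₗ[F] F => ψ ⟨x, hx⟩) hφ
  choose φ hφm hφ using hpair
  have huniq : ∀ z ∈ D 1, ∀ z' ∈ D 1, (∀ x ∈ D 0, (Cfsg.hermForm 4 F q) x z = (Cfsg.hermForm 4 F q) x z') → z = z' := by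
    intro z hz z' hz' e
    refine sub_eq_zero.1 (herm_nondeg' hF fun u => ?_)
    obtain ⟨u0, hu0, u1, hu1, rfl⟩ := Submodule.mem_sup.1 (htop ▸ Submodule.mem_top (x := u))
    rw [herm_add_left, hts 1 u1 hu1 _ ((D 1).sub_mem hz hz'), add_zero]
    have e' := herm_add_right hF (z - z') z' u0
    rw [sub_add_cancel] at e'
    have := e u0 hu0
    linear_combination this - e'
  let Φ : D 0 →+ (Fin 4 → F) := AddMonoidHom.mk' (fun y => φ y y.2) fun y y' =>
    huniq _ (hφm _ _) _ ((D 1).add_mem (hφm _ _) (hφm _ _)) fun x hx => by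
      rw [hφ _ _ x hx, herm_add_right hF, hφ _ _ x hx, hφ _ _ x hx, hskew, hskew x, hskew x,
        hΔadd y y' ⟨x, hx⟩]
      ring
  have hΦm : ∀ y, Φ y ∈ D 1 := fun y => hφm _ y.2
  have hΦ : ∀ x ∈ D 0, ∀ y : D 0, (Cfsg.hermForm 4 F q) x (Φ y) = Δ x y := fun x hx y => hφ _ y.2 x hx
  have hΦs : ∀ (c : F) (y : D 0), Φ (c • y) = c ^ q • Φ y := fun c y =>
    huniq _ (hΦm _) _ ((D 1).smul_mem _ (hΦm _)) fun x hx => by
      rw [hΦ x hx, herm_smul_right hF, hΦ x hx, q_pow_pow hF, hskew, hskew x,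
        hΔsmul c y ⟨x, hx⟩]
      ring
  have hform : ∀ X Y : D 0, (Cfsg.hermForm 4 F q) ((X : Fin 4 → F) + Φ X) ((Y : Fin 4 → F) + Φ Y) =
      Δ X Y - Δ X Y ^ q := fun X Y => by
    rw [herm_add_left, herm_add_right hF, herm_add_right hF, herm_symm hF (Φ X) (Y : Fin 4 → F),
      hts 0 X X.2 Y Y.2, hts 1 _ (hΦm X) _ (hΦm Y), hΦ X X.2 Y, hΦ Y Y.2 X, hskew Y X,
      q_neg_pow hF]
    ring
  -- coordinates over the fixed field
  obtain ⟨t, ht⟩ := exists_pow_ne_self hF
  have htd : t - t ^ q ≠ 0 := sub_ne_zero.2 (Ne.symm ht)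
  have hdec : ∀ a : F, ∃ u v : F, u ^ q = u ∧ v ^ q = v ∧ a = u + t * v := by
    intro a
    set v := (a - a ^ q) / (t - t ^ q) with hv
    have hvq : v ^ q = v := by
      rw [hv, div_pow, q_sub_pow hF, q_sub_pow hF, q_pow_pow hF, q_pow_pow hF,
        ← neg_sub a (a ^ q), ← neg_sub t (t ^ q), neg_div_neg_eq]
    refine ⟨a - t * v, v, ?_, hvq, by ring⟩
    rw [q_sub_pow hF, mul_pow, hvq]
    have : v * (t - t ^ q) = a - a ^ q := by rw [hv, div_mul_cancel₀ _ htd]
    linear_combination this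
  let Xv : (Fin 4 → F) → D 0 := fun u => (u 0 + t * u 1) • b 0 + (u 2 + t * u 3) • b 1
  let vv : Fin 4 → (Fin 4 → F) := fun k => (Xv (Pi.single k 1) : Fin 4 → F) + Φ (Xv (Pi.single k 1))
  have hli : LinearIndependent F vv := by
    rw [Fintype.linearIndependent_iff]
    intro c hc
    let c' : Fin 4 → F := fun k => c k ^ q
    have h0 : (Xv c : Fin 4 → F) + Φ (Xv c') = 0 := by
      rw [← hc]
      simp only [vv, Fin.sum_univ_four, Xv, Pi.single_eq_same, smul_add, ← hΦs, map_add, c']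
      simp [Pi.single_apply, hΦs, mul_pow, q_add_pow hF, q_pow_pow hF, smul_add, smul_smul]
      module
    have h1 : (Xv c : Fin 4 → F) = 0 := by
      refine Submodule.disjoint_def.1 hdis _ (Xv c).2 ?_
      rw [eq_neg_of_add_eq_zero_left h0]
      exact (D 1).neg_mem (hΦm _)
    have h2 : Xv c' = 0 := by
      rw [h1, zero_add] at h0
      have e : ∀ x : D 0, Δ x (Xv c') = 0 := fun x => by
        rw [← hΦ x x.2 (Xv c'), h0, herm_zero_right hF]
      refine Subtype.ext ?_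
      have e0 := e (b 0)
      have e1 := e (b 1)
      simp only [Δ, hdb] at e0 e1
      norm_num at e0 e1
      rw [hrep _ (Xv c').2, e0, e1, zero_smul, zero_smul, add_zero]
      rfl
    have hb : ∀ a a' : F, a • b 0 + a' • b 1 = 0 → a = 0 ∧ a' = 0 := fun a a' e => by
      have e1 := congrArg (fun z => b.repr z 0) e
      have e2 := congrArg (fun z => b.repr z 1) e
      simp at e1 e2
      exact ⟨e1, e2⟩
    obtain ⟨a1, a2⟩ := hb _ _ (Subtype.ext (h1.trans rfl) : Xv c = 0)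
    obtain ⟨a3, a4⟩ := hb _ _ h2
    have key : ∀ x y : F, x + t * y = 0 → x ^ q + t * y ^ q = 0 → x = 0 ∧ y = 0 := fun x y e e' => by
      have e'' := congrArg (fun z : F => z ^ q) e
      simp only [q_add_pow hF, mul_pow, hq0] at e''
      have hy : y ^ q = 0 := (mul_eq_zero.1 (show (t - t ^ q) * y ^ q = 0 by
        linear_combination e' - e'')).resolve_left htd
      have hy0 : y = 0 := pow_eq_zero_iff (q_pos hF).ne' |>.1 hy
      subst hy0
      exact ⟨by simpa using e, rfl⟩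
    obtain ⟨z0, z1⟩ := key _ _ a1 a3
    obtain ⟨z2, z3⟩ := key _ _ a2 a4
    intro k
    fin_cases k <;> assumption
  let Pm : Matrix (Fin 4) (Fin 4) F := Matrix.of fun i k => vv k i
  have hPu : IsUnit Pm := by
    rw [← Matrix.linearIndependent_cols_iff_isUnit]
    exact hli
  let P : GL (Fin 4) F := hPu.unit
  have hP : ∀ u : Fin 4 → F, (∀ k, u k ^ q = u k) →
      P.val *ᵥ u = (Xv u : Fin 4 → F) + Φ (Xv u) := by
    intro u hu
    have e : P.val *ᵥ u = ∑ k, u k • vv k := by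
      funext i
      simp [P, Pm, Matrix.mulVec, dotProduct, Finset.sum_apply, mul_comm]
    rw [e]
    simp only [vv, Fin.sum_univ_four, Xv]
    simp [Pi.single_apply, hΦs, mul_pow, q_add_pow hF, hu, smul_add, smul_smul]
    module
  obtain ⟨ζ, hζ0, hζ⟩ := exists_trace_zero hF
  have hζq : ζ ^ q = -ζ := eq_neg_of_add_eq_zero_right hζ
  refine ⟨fixedField hF, P, ζ, by rw [card_fixedField hF, hF], hζ0, hζ, ?_, ?_, ?_⟩
  · intro u v hu hv
    rw [hP u fun k => (mem_fixedField hF).1 (hu k), hP v fun k => (mem_fixedField hF).1 (hv k), hform,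
      mem_fixedField hF, mul_pow, hζq, q_sub_pow hF, q_pow_pow hF]
    ring
  · intro u hu
    rw [hP u fun k => (mem_fixedField hF).1 (hu k), hform]
    have : Δ (Xv u : Fin 4 → F) (Xv u) = 0 := by simp only [Δ]; ring
    rw [this, hq0, sub_zero]
  rintro g ⟨⟨π, hπ⟩, hgU, hgS⟩
  have hgf : ∀ u v, (Cfsg.hermForm 4 F q) (g.val *ᵥ u) (g.val *ᵥ v) = (Cfsg.hermForm 4 F q) u v := fun u v => hgU u v
  have hgm : ∀ i j, π i = j → ∀ x ∈ D i, g.val *ᵥ x ∈ D j := fun i j e x hx => by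
    rw [← e, ← hπ i]; exact ⟨x, hx, Matrix.toLin'_apply _ _⟩
  -- a semilinear map of the first plane compared with the pairing
  have hcmp : ∀ (G : D 0 →+ (Fin 4 → F)) (s : RingAut F), (∀ (a : F) x, G (a • x) = s a • G x) →
      Function.Injective G → ∀ (hG : ∀ x, G x ∈ D 0) (k : D 0 → (Fin 4 → F)), (∀ y, k y ∈ D 1) →
      (∀ z y : D 0, (Cfsg.hermForm 4 F q) (G z) (k y) = s (Δ z y)) →
      Δ (G (b 0)) (G (b 1)) ≠ 0 ∧
        ∀ y : D 0, k y = ((Δ (G (b 0)) (G (b 1)))⁻¹) ^ q • Φ ⟨G y, hG y⟩ := by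
    intro G s hGs hGi hG k hk hGk
    set K := Δ (G (b 0)) (G (b 1)) with hKdef
    have hexp : ∀ x : D 0, G x = s (d x 0) • G (b 0) + s (d x 1) • G (b 1) := fun x => by
      conv_lhs => rw [show x = d x 0 • b 0 + d x 1 • b 1 from Subtype.ext (hrep x x.2), map_add, hGs, hGs]
    have hdet : ∀ x y : D 0, Δ (G x) (G y) = K * s (Δ x y) := fun x y => by
      have ex := hdlin (s (d x 0)) (s (d x 1)) _ _ (hG (b 0)) (hG (b 1))
      have ey := hdlin (s (d y 0)) (s (d y 1)) _ _ (hG (b 0)) (hG (b 1))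
      simp only [Δ, hexp x, hexp y, ex, ey, hKdef, map_sub, map_mul]
      ring
    have hsurj : ∀ w : D 0, ∃ z : D 0, G z = w := fun w => by
      haveI : Finite (D 0) := inferInstance
      have hinj' : Function.Injective fun z : D 0 => (⟨G z, hG z⟩ : D 0) := fun a c e =>
        hGi (congrArg Subtype.val e)
      obtain ⟨z, hz⟩ := (Finite.injective_iff_surjective.1 hinj') w
      exact ⟨z, congrArg Subtype.val hz⟩
    have hK0 : K ≠ 0 := fun h0 => by
      obtain ⟨z0, e0⟩ := hsurj (b 0)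
      obtain ⟨z1, e1⟩ := hsurj (b 1)
      have := hdet z0 z1
      rw [e0, e1, h0, zero_mul, hΔb] at this
      exact one_ne_zero this
    refine ⟨hK0, fun y => huniq _ (hk y) _ ((D 1).smul_mem _ (hΦm _)) fun x hx => ?_⟩
    obtain ⟨z, hz⟩ := hsurj ⟨x, hx⟩
    change G z = x at hz
    subst hz
    rw [herm_smul_right hF, hGk, hΦ _ hx, hdet z y, q_pow_pow hF, inv_mul_cancel_left₀ hK0]
  let gL : (Fin 4 → F) →ₗ[F] (Fin 4 → F) := Matrix.toLin' g.val
  -- determinant in the adapted basis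
  let w : Fin 4 → (Fin 4 → F) := ![(b 0 : Fin 4 → F), (b 1 : Fin 4 → F), Φ (b 0), Φ (b 1)]
  have hw : LinearIndependent F w := by
    rw [Fintype.linearIndependent_iff]
    intro c hc
    rw [Fin.sum_univ_four] at hc
    simp only [w, Matrix.cons_val] at hc
    have hB : c 2 • Φ (b 0) + c 3 • Φ (b 1) = Φ (c 2 ^ q • b 0 + c 3 ^ q • b 1) := by
      rw [map_add, hΦs, hΦs, q_pow_pow hF, q_pow_pow hF]
    have hA : ((c 0 • b 0 + c 1 • b 1 : D 0) : Fin 4 → F) = -Φ (c 2 ^ q • b 0 + c 3 ^ q • b 1) := by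
      rw [← hB, Submodule.coe_add, Submodule.coe_smul, Submodule.coe_smul]
      linear_combination (norm := module) hc
    have hA0 : ((c 0 • b 0 + c 1 • b 1 : D 0) : Fin 4 → F) = 0 :=
      Submodule.disjoint_def.1 hdis _ (Subtype.mem _) (hA ▸ (D 1).neg_mem (hΦm _))
    rw [hA0, eq_comm, neg_eq_zero] at hA
    have eA : ∀ i, d (((c 0 • b 0 + c 1 • b 1 : D 0) : Fin 4 → F)) i = 0 := fun i => by
      rw [hA0, hd _ (D 0).zero_mem]
      exact DFunLike.congr_fun (map_zero b.repr) i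
    have eB : ∀ i, Δ (b i : Fin 4 → F) (c 2 ^ q • b 0 + c 3 ^ q • b 1 : D 0) = 0 := fun i => by
      rw [← hΦ _ (b i).2, hA, herm_zero_right hF]
    have a0 := eA 0
    have a1 := eA 1
    have b0 := eB 0
    have b1 := eB 1
    simp only [Submodule.coe_add, Submodule.coe_smul, hdlin _ _ _ _ (b 0).2 (b 1).2, hdb, Δ] at a0 a1 b0 b1
    norm_num [pow_eq_zero_iff (q_pos hF).ne'] at a0 a1 b0 b1
    intro k
    fin_cases k <;> assumption
  let W : Basis (Fin 4) F (Fin 4 → F) := basisOfLinearIndependentOfCardEqFinrank hw (by simp)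
  have hW : ∀ k, W k = w k := fun k => by simp [W]
  have hdetW : (LinearMap.toMatrix W W gL).det = 1 := by
    rw [LinearMap.det_toMatrix, LinearMap.det_toLin']
    exact congrArg Units.val (MonoidHom.mem_ker.1 hgS)
  have hentry : ∀ (j : Fin 4) (a : Fin 4 → F), g.val *ᵥ w j = ∑ i, a i • w i →
      ∀ i, LinearMap.toMatrix W W gL i j = a i := fun j a e i => by
    rw [LinearMap.toMatrix_apply, hW, Matrix.toLin'_apply, e]
    simp only [← hW, W.repr_sum_self]
  have hD0 : ∀ y ∈ D 0, y = d y 0 • w 0 + d y 1 • w 1 := fun y hy => hrep y hy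
  have hD1 : ∀ y : D 0, Φ y = d y 0 ^ q • w 2 + d y 1 ^ q • w 3 := fun y => by
    conv_lhs => rw [show y = d y 0 • b 0 + d y 1 • b 1 from Subtype.ext (hrep y y.2), map_add, hΦs, hΦs]
    rfl
  suffices hkey : ∃ c : F, c ^ q = c ∧ c * c = 1 ∧
      ∀ X : D 0, ∃ Y : D 0, g.val *ᵥ ((X : Fin 4 → F) + Φ X) = (Y : Fin 4 → F) + c • Φ Y by
    obtain ⟨c, hcq, hc2, hmap⟩ := hkey
    obtain ⟨μ, hμ0, hμ⟩ : ∃ μ : F, μ ≠ 0 ∧ μ * c = μ ^ q := by
      rcases mul_self_eq_one_iff.1 hc2 with rfl | rfl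
      · exact ⟨1, one_ne_zero, by rw [mul_one, one_pow]⟩
      · exact ⟨ζ, hζ0, by rw [hζq, mul_neg_one]⟩
    refine mem_subfieldSubgroup_of_rational hμ0 fun i k => ?_
    set u : Fin 4 → F := Pi.single k 1
    have hu : ∀ j, u j ^ q = u j := fun j => by
      by_cases hj : j = k
      · subst hj; simp [u]
      · simp [u, hj, hq0]
    obtain ⟨Y, hY⟩ := hmap (Xv u)
    obtain ⟨u0, u1, p0, p1, e01⟩ := hdec (μ * d (Y : Fin 4 → F) 0)
    obtain ⟨u2, u3, p2, p3, e23⟩ := hdec (μ * d (Y : Fin 4 → F) 1)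
    set z : Fin 4 → F := ![u0, u1, u2, u3]
    have hz : ∀ j, z j ^ q = z j := fun j => by fin_cases j <;> assumption
    have hXz : Xv z = μ • Y := Subtype.ext (by
      conv_rhs => rw [Submodule.coe_smul, hrep (Y : Fin 4 → F) Y.2, smul_add, smul_smul, smul_smul, e01,
        e23]
      simp [Xv, z])
    have hfinal : μ • ((g * P).val *ᵥ u) = P.val *ᵥ z := by
      rw [hP z hz, hXz, hΦs, ← hμ, Units.val_mul, ← Matrix.mulVec_mulVec, hP u hu, hY, smul_add,
        smul_smul, Submodule.coe_smul]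
    have hcol : μ • ((P⁻¹ * g * P : GL (Fin 4) F).val *ᵥ u) = z := by
      rw [mul_assoc, Units.val_mul, ← Matrix.mulVec_mulVec, ← Matrix.mulVec_smul, hfinal,
        CfsgLib.Aschbacher.inv_mulVec_mulVec]
    rw [mem_fixedField hF]
    have hik : μ * (P⁻¹ * g * P : GL (Fin 4) F).val i k = z i := by
      rw [← hcol]
      simp [u]
    rw [hik]
    exact hz i
  have hπ01 : (π 0 = 0 ∧ π 1 = 1) ∨ (π 0 = 1 ∧ π 1 = 0) := by
    have h1 := π.injective.ne (show (0 : Fin 2) ≠ 1 by decide)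
    revert h1
    generalize π 0 = a
    generalize π 1 = c
    revert a c
    decide
  rcases hπ01 with ⟨p0, p1⟩ | ⟨p0, p1⟩
  · let G : D 0 →+ (Fin 4 → F) := gL.toAddMonoidHom.comp (D 0).subtype.toAddMonoidHom
    have hGapp : ∀ x : D 0, G x = g.val *ᵥ (x : Fin 4 → F) := fun x => by simp [G, gL]
    have hG : ∀ x, G x ∈ D 0 := fun x => by rw [hGapp]; exact hgm 0 0 p0 x x.2
    obtain ⟨hK0, hc⟩ := hcmp G 1 (fun a x => by simp [G, gL])
      (fun u v e => Subtype.ext (CfsgLib.Aschbacher.mulVec_inj g (by simpa [hGapp] using e))) hG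
      (fun y => g.val *ᵥ Φ y) (fun y => hgm 1 1 p1 _ (hΦm y))
      (fun z y => by rw [hGapp, hgf, hΦ z z.2 y]; rfl)
    set K := Δ (G (b 0)) (G (b 1)) with hKdef
    set c := K⁻¹ ^ q with hcdef
    have hcol : ∀ (i : Fin 2) (j : Fin 4), w j = (b i : Fin 4 → F) →
        ∀ r, LinearMap.toMatrix W W gL r j = ![d (G (b i)) 0, d (G (b i)) 1, 0, 0] r := fun i j e =>
      hentry j _ (by rw [e, ← hGapp, Fin.sum_univ_four]; simpa using hD0 _ (hG (b i)))
    have hcol' : ∀ (i : Fin 2) (j : Fin 4), w j = Φ (b i) →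
        ∀ r, LinearMap.toMatrix W W gL r j = ![0, 0, c * d (G (b i)) 0 ^ q, c * d (G (b i)) 1 ^ q] r := fun i j e =>
      hentry j _ (by rw [e, hc, hD1, Fin.sum_univ_four]; simp [smul_add, smul_smul])
    have hone : K * (c * c) * K ^ q = 1 := by
      rw [← hdetW]
      have e0 := hcol 0 0 rfl
      have e1 := hcol 1 1 rfl
      have e2 := hcol' 0 2 rfl
      have e3 := hcol' 1 3 rfl
      simp only [Matrix.det_succ_row_zero, Fin.sum_univ_succ, Matrix.submatrix_apply, Fin.succAbove]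
      simp [e0, e1, e2, e3, hKdef, Δ, q_sub_pow hF, mul_pow]
      ring
    have hKq : K ^ q = K := by
      have hKqK : K ^ q * K⁻¹ ^ q = 1 := by rw [← mul_pow, mul_inv_cancel₀ hK0, one_pow]
      have e : K * c = 1 := by
        linear_combination hone - (K * c) * hKqK
      calc K ^ q = K ^ q * (K * c) := by rw [e, mul_one]
        _ = K := by rw [hcdef]; linear_combination K * hKqK
    have hcK : c = K := by
      rw [hcdef, inv_pow, hKq]
      exact inv_eq_of_mul_eq_one_right (hK K hK0 hKq)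
    refine ⟨c, by rw [hcK, hKq], by rw [hcK]; exact hK K hK0 hKq, fun X => ⟨⟨G X, hG X⟩, ?_⟩⟩
    rw [Matrix.mulVec_add, hc X]
    exact congrArg (· + _) (hGapp X).symm
  · let G : D 0 →+ (Fin 4 → F) := gL.toAddMonoidHom.comp Φ
    have hGapp : ∀ x : D 0, G x = g.val *ᵥ Φ x := fun x => by simp [G, gL]
    have hG : ∀ x, G x ∈ D 0 := fun x => by rw [hGapp]; exact hgm 1 0 p1 _ (hΦm x)
    have hΦi : Function.Injective Φ := fun u v e => by
      refine Subtype.ext (sub_eq_zero.1 ?_)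
      have e' : ∀ i, Δ (b i : Fin 4 → F) (u - v : D 0) = 0 := fun i => by
        rw [← hΦ _ (b i).2, map_sub, e, sub_self, herm_zero_right hF]
      have e0 := e' 0
      have e1 := e' 1
      simp only [Δ, hdb] at e0 e1
      norm_num at e0 e1
      have := hrep _ (u - v : D 0).2
      simp only [Submodule.coe_sub, e0, e1, zero_smul, add_zero] at this
      exact this
    obtain ⟨hK0, hc⟩ := hcmp G (qFrob hF) (fun a x => by simp [G, gL, hΦs])
      (fun u v e => hΦi (CfsgLib.Aschbacher.mulVec_inj g (by simpa [hGapp] using e))) hG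
      (fun y => -(g.val *ᵥ (y : Fin 4 → F))) (fun y => (D 1).neg_mem (hgm 0 1 p0 y y.2))
      (fun z y => by
        rw [hGapp, ← Matrix.mulVec_neg, hgf, ← neg_one_smul F, herm_smul_right hF, q_neg_pow hF,
          one_pow, herm_symm hF, hΦ y y.2 z, hskew, q_neg_pow hF, qFrob_apply]
        ring)
    set K := Δ (G (b 0)) (G (b 1)) with hKdef
    set c := K⁻¹ ^ q with hcdef
    have hgy : ∀ y : D 0, g.val *ᵥ (y : Fin 4 → F) = -(c • Φ ⟨G y, hG y⟩) := fun y => by
      rw [← hc, neg_neg]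
    have hcol : ∀ (i : Fin 2) (j : Fin 4), w j = (b i : Fin 4 → F) →
        ∀ r, LinearMap.toMatrix W W gL r j =
          ![0, 0, -(c * d (G (b i)) 0 ^ q), -(c * d (G (b i)) 1 ^ q)] r := fun i j e =>
      hentry j _ (by rw [e, hgy, hD1, Fin.sum_univ_four]; simp [smul_add, smul_smul]; module)
    have hcol' : ∀ (i : Fin 2) (j : Fin 4), w j = Φ (b i) →
        ∀ r, LinearMap.toMatrix W W gL r j = ![d (G (b i)) 0, d (G (b i)) 1, 0, 0] r := fun i j e =>
      hentry j _ (by rw [e, ← hGapp, Fin.sum_univ_four]; simpa using hD0 _ (hG (b i)))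
    have hone : K * (c * c) * K ^ q = 1 := by
      rw [← hdetW]
      have e0 := hcol 0 0 rfl
      have e1 := hcol 1 1 rfl
      have e2 := hcol' 0 2 rfl
      have e3 := hcol' 1 3 rfl
      simp only [Matrix.det_succ_row_zero, Fin.sum_univ_succ, Matrix.submatrix_apply, Fin.succAbove]
      simp [e0, e1, e2, e3, hKdef, Δ, q_sub_pow hF, mul_pow]
      ring
    have hKq : K ^ q = K := by
      have hKqK : K ^ q * K⁻¹ ^ q = 1 := by rw [← mul_pow, mul_inv_cancel₀ hK0, one_pow]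
      have e : K * c = 1 := by
        linear_combination hone - (K * c) * hKqK
      calc K ^ q = K ^ q * (K * c) := by rw [e, mul_one]
        _ = K := by rw [hcdef]; linear_combination K * hKqK
    have hcK : c = K := by
      rw [hcdef, inv_pow, hKq]
      exact inv_eq_of_mul_eq_one_right (hK K hK0 hKq)
    have hcq : (-c) ^ q = -c := by rw [q_neg_pow hF, hcK, hKq]
    refine ⟨-c, hcq, by rw [neg_mul_neg, hcK]; exact hK K hK0 hKq, fun X => ⟨⟨G X, hG X⟩, ?_⟩⟩
    rw [Matrix.mulVec_add, hgy X, neg_smul, add_comm]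
    exact congrArg (· + _) (hGapp X).symm

end CfsgLib.AschFour
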