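import Mathlib
import Cfsg.Agent.Eq.Def_GeometricClasses
import Cfsg.Agent.Aschbacher.UnitaryMaximal

/-!
Over the field with four elements two orthogonal non-degenerate planes determine four orthogonal lines.
-/

set_option autoImplicit false
set_option linter.unusedSectionVars false

namespace CfsgLib.AschFour

open Cfsg.Geo Module CfsgLib.AschPrime CfsgLib.Aschbacher.Unitary
open scoped Matrix MatrixGroups

variable {F : Type*} [Field F] [Fintype F] {q : ℕ}
variable (hF : Fintype.card F = q ^ 2)
include hF

/-- Planes over four elements: every isometry stabiliser refines to lines. -/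
theorem planes_lines (hq : q = 2) {D : Fin 2 → Submodule F (Fin 4 → F)}
    (hD : IsNondegenerateMDecomposition (Cfsg.hermForm 4 F q) 2 D) :
    ∃ D' : Fin 4 → Submodule F (Fin 4 → F), IsNondegenerateMDecomposition (Cfsg.hermForm 4 F q) 1 D' ∧
      ∀ g ∈ decompositionStabilizer D, g ∈ Cfsg.GU 4 F q → g ∈ decompositionStabilizer D' := by
  classical
  have hq0 : (0 : F) ^ q = 0 := zero_pow (q_pos hF).ne'
  have hfix : ∀ a : F, a ≠ 0 → a ^ q = a → a = 1 := fun a ha h => by
    rw [hq, sq] at h
    exact mul_left_cancel₀ ha (h.trans (mul_one a).symm)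
  have hnorm : ∀ a : F, a ≠ 0 → a * a ^ q = 1 := fun a ha =>
    hfix _ (mul_ne_zero ha (pow_ne_zero _ ha)) (by rw [mul_pow, q_pow_pow hF, mul_comm])
  have h2 : (1 : F) + 1 = 0 := by
    by_contra h
    exact one_ne_zero (α := F) (add_eq_left.1 (hfix (1 + 1) h (by rw [q_add_pow hF, one_pow])))
  -- an orthonormal pair in each plane
  have hpair : ∀ i, ∃ e : Fin 2 → (Fin 4 → F), (∀ k, e k ∈ D i) ∧
      (∀ k l, Cfsg.hermForm 4 F q (e k) (e l) = if k = l then 1 else 0) := by
    intro i
    have hne : D i ≠ ⊥ := fun h => by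
      have := hD.decomp.finrank_eq i
      rw [h, finrank_bot] at this
      omega
    obtain ⟨a, ha, haa⟩ := exists_anisotropic hF (hD.nondegenerate i) hne
    have ha1 := hfix _ haa (herm_self_fixed hF a)
    obtain ⟨u, hu, hua⟩ : ∃ u ∈ D i, u ∉ Submodule.span F {a} := by
      by_contra! hall
      have h1 := Submodule.finrank_mono (show D i ≤ Submodule.span F {a} from fun u hu => hall u hu)
      rw [hD.decomp.finrank_eq, finrank_span_singleton (fun h => haa (by rw [h]; exact herm_zero_left _))] at h1
      omega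
    set b := u + (-Cfsg.hermForm 4 F q u a) • a with hb
    have hba : Cfsg.hermForm 4 F q b a = 0 := by
      rw [hb, herm_add_left, herm_smul_left, ha1]; ring
    have hab : Cfsg.hermForm 4 F q a b = 0 := by rw [herm_symm hF, hba, hq0]
    have hbD : b ∈ D i := (D i).add_mem hu ((D i).smul_mem _ ha)
    have hb0 : b ≠ 0 := fun h => hua (by
      rw [hb, add_eq_zero_iff_eq_neg, ← neg_smul] at h
      rw [h]
      exact Submodule.smul_mem _ _ (Submodule.mem_span_singleton_self a))
    have hbb : Cfsg.hermForm 4 F q b b ≠ 0 := fun h0 => by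
      obtain ⟨⟨x, hx, hxb⟩, -⟩ := hD.nondegenerate i b hbD hb0
      have hli : LinearIndependent F ![b, a] := by
        rw [LinearIndependent.pair_iff' hb0]
        intro c hc
        exact haa (by rw [← hc, herm_smul_left, herm_smul_right hF, h0]; ring)
      have hspan : Submodule.span F (Set.range ![b, a]) = D i := by
        refine Submodule.eq_of_le_of_finrank_eq (Submodule.span_le.2 ?_) ?_
        · rintro _ ⟨j, rfl⟩; fin_cases j
          · exact hbD
          · exact ha
        · rw [finrank_span_eq_card hli, hD.decomp.finrank_eq, Fintype.card_fin]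
      have hker : Submodule.span F (Set.range ![b, a]) ≤ LinearMap.ker (hermDual q b) := by
        refine Submodule.span_le.2 ?_
        rintro _ ⟨j, rfl⟩; fin_cases j
        · exact h0
        · exact hab
      exact hxb (hker (hspan ▸ hx))
    refine ⟨![a, b], Fin.forall_fin_two.2 ⟨ha, hbD⟩, ?_⟩
    intro k l
    fin_cases k <;> fin_cases l <;> simp [ha1, hab, hba, hfix _ hbb (herm_self_fixed hF b)]
  choose e he hee using hpair
  let E : Fin 2 × Fin 2 ≃ Fin 4 := finProdFinEquiv
  let v : Fin 4 → (Fin 4 → F) := fun j => e (E.symm j).1 (E.symm j).2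
  have hv : ∀ j l, Cfsg.hermForm 4 F q (v j) (v l) = if j = l then 1 else 0 := by
    intro j l
    obtain ⟨⟨i, k⟩, rfl⟩ := E.surjective j
    obtain ⟨⟨i', k'⟩, rfl⟩ := E.surjective l
    simp only [v, Equiv.symm_apply_apply, E.injective.eq_iff, Prod.mk.injEq]
    by_cases hi : i = i'
    · subst hi
      simpa using hee i k k'
    · rw [if_neg (fun h => hi h.1)]
      exact hD.orthogonal i i' hi _ (he i k) _ (he i' k')
  have hli : LinearIndependent F v := by
    rw [Fintype.linearIndependent_iff]
    intro c hc j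
    have h := congrArg (fun u => hermDual q (v j) u) hc
    simpa [map_sum, hv, herm_zero_left, hermDual_apply] using h
  let V : Basis (Fin 4) F (Fin 4 → F) := basisOfLinearIndependentOfCardEqFinrank hli (by simp)
  let D' : Fin 4 → Submodule F (Fin 4 → F) := fun j => Submodule.span F {v j}
  have hne : ∀ j, v j ≠ 0 := fun j h => by
    have := hv j j
    rw [h, herm_zero_left, if_pos rfl] at this
    exact zero_ne_one this
  refine ⟨D', ⟨⟨by norm_num, one_pos, fun j => finrank_span_singleton (hne j), ?_, ?_⟩, ?_, ?_⟩, ?_⟩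
  · exact hli.iSupIndep_span_singleton
  · rw [← Submodule.span_range_eq_iSup]
    have := V.span_eq
    rwa [show (V : Fin 4 → Fin 4 → F) = v by ext1 j; simp [V]] at this
  · intro j w hw hw0
    obtain ⟨c, rfl⟩ := Submodule.mem_span_singleton.1 hw
    have hc : c ≠ 0 := fun h => hw0 (by rw [h, zero_smul])
    refine ⟨⟨v j, Submodule.mem_span_singleton_self _, ?_⟩, ⟨v j, Submodule.mem_span_singleton_self _, ?_⟩⟩
    · rw [herm_smul_right hF, hv, if_pos rfl, mul_one]
      exact pow_ne_zero _ hc
    · rw [herm_smul_left, hv, if_pos rfl, mul_one]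
      exact hc
  · intro j l hjl x hx y hy
    obtain ⟨c, rfl⟩ := Submodule.mem_span_singleton.1 hx
    obtain ⟨c', rfl⟩ := Submodule.mem_span_singleton.1 hy
    rw [herm_smul_left, herm_smul_right hF, hv, if_neg hjl, mul_zero, mul_zero]
  intro g hg hgU
  obtain ⟨π, hπ⟩ := hg
  -- an anisotropic vector of a plane lies on one of its lines
  have honline : ∀ i x, x ∈ D i → Cfsg.hermForm 4 F q x x ≠ 0 → ∃ j, x ∈ D' j := by
    intro i x hx hxx
    have hli' : LinearIndependent F (e i) := by
      rw [Fintype.linearIndependent_iff]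
      intro c hc k
      have h := congrArg (fun u => hermDual q (e i k) u) hc
      fin_cases k <;> simpa [Fin.sum_univ_two, herm_add_left, herm_smul_left, hee, herm_zero_left,
        hermDual_apply] using h
    have hspan : Submodule.span F (Set.range (e i)) = D i := by
      refine Submodule.eq_of_le_of_finrank_eq (Submodule.span_le.2 ?_) ?_
      · rintro _ ⟨k, rfl⟩; exact he i k
      · rw [finrank_span_eq_card hli', hD.decomp.finrank_eq, Fintype.card_fin]
    obtain ⟨c, rfl⟩ := (Submodule.mem_span_range_iff_exists_fun F).1 (hspan.symm ▸ hx)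
    have hcc : Cfsg.hermForm 4 F q (∑ k, c k • e i k) (∑ k, c k • e i k) = c 0 * c 0 ^ q + c 1 * c 1 ^ q := by
      simp [Fin.sum_univ_two, herm_add_left, herm_add_right hF, herm_smul_left, herm_smul_right hF, hee,
        mul_comm]
    rw [hcc] at hxx
    by_cases h0 : c 0 = 0
    · refine ⟨E (i, 1), Submodule.mem_span_singleton.2 ⟨c 1, ?_⟩⟩
      simp [v, Fin.sum_univ_two, h0]
    by_cases h1 : c 1 = 0
    · refine ⟨E (i, 0), Submodule.mem_span_singleton.2 ⟨c 0, ?_⟩⟩
      simp [v, Fin.sum_univ_two, h1]
    exact absurd (by rw [hnorm _ h0, hnorm _ h1, h2]) hxx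
  have himg : ∀ j, ∃ l, g.val *ᵥ v j ∈ D' l := fun j => by
    refine honline (π (E.symm j).1) _ ?_ ?_
    · rw [← hπ]
      exact ⟨_, he _ _, Matrix.toLin'_apply _ _⟩
    · rw [mem_GU.1 hgU, hv, if_pos rfl]
      exact one_ne_zero
  choose σ hσ using himg
  have hinj : Function.Injective σ := by
    intro j l hjl
    by_contra hne'
    obtain ⟨c, hc⟩ := Submodule.mem_span_singleton.1 (hσ j)
    obtain ⟨c', hc'⟩ := Submodule.mem_span_singleton.1 (hσ l)
    have h := mem_GU.1 hgU (v j) (v l)
    rw [← hc, ← hc', hjl, herm_smul_left, herm_smul_right hF, hv, hv, if_pos rfl, if_neg hne', mul_one] at h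
    rcases mul_eq_zero.1 h with h | h
    · exact hne j (CfsgLib.Aschbacher.mulVec_inj g (show g.val *ᵥ v j = g.val *ᵥ 0 by
        rw [← hc, h, zero_smul, Matrix.mulVec_zero]))
    · rw [pow_eq_zero_iff (q_pos hF).ne'] at h
      exact hne l (CfsgLib.Aschbacher.mulVec_inj g (show g.val *ᵥ v l = g.val *ᵥ 0 by
        rw [← hc', h, zero_smul, Matrix.mulVec_zero]))
  refine ⟨Equiv.ofBijective σ (Finite.injective_iff_bijective.1 hinj), fun j => ?_⟩
  obtain ⟨c, hc⟩ := Submodule.mem_span_singleton.1 (hσ j)
  show (D' j).map _ = D' (σ j)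
  simp only [D', Submodule.map_span, Set.image_singleton, Matrix.toLin'_apply, ← hc]
  refine Submodule.span_singleton_smul_eq (IsUnit.mk0 c fun h => hne j (CfsgLib.Aschbacher.mulVec_inj g ?_)) _
  show g.val *ᵥ v j = g.val *ᵥ 0
  rw [← hc, h, zero_smul, Matrix.mulVec_zero]

end CfsgLib.AschFour
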