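import Mathlib
import Cfsg.Agent.Eq.Def_GeometricClasses
import Cfsg.Agent.Aschbacher.UnitaryMaximal
import Cfsg.Agent.Aschbacher.UnitaryAbelian
import Cfsg.Agent.Aschbacher.UnitaryTensorPower
import Cfsg.Agent.Aschbacher.UnitaryStructure
import Cfsg.Agent.AschFour.Common
import Cfsg.Agent.AschFour.UnitaryPair
import Cfsg.Agent.AschFour.UnitaryPlanes
import Cfsg.Agent.AschFour.UnitaryMonomial

/-!
The maximal subgroups of the special unitary group in dimension four: a member of a geometric class or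
the residual class.
-/

set_option autoImplicit false
set_option linter.unusedSectionVars false

namespace CfsgLib.AschFour

open Cfsg.Geo Module CfsgLib.AschPrime CfsgLib.Aschbacher CfsgLib.Aschbacher.Unitary
open scoped Matrix MatrixGroups Kronecker

variable {F : Type*} [Field F] [Fintype F] {q : ℕ}

/-- A subfield of index two over which a structure is defined is proper. -/
theorem ne_top_of_card_sq {F₀ : Subfield F} (h : Fintype.card F = Nat.card F₀ ^ 2) : F₀ ≠ ⊤ := by
  intro htop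
  have h1 : Nat.card F₀ = Fintype.card F := by
    rw [htop, ← Nat.card_eq_fintype_card]; exact Nat.card_congr (Equiv.Set.univ F)
  rw [h1] at h
  have h2 := Fintype.one_lt_card (α := F)
  nlinarith

variable (hF : Fintype.card F = q ^ 2)
include hF

/-- The two subfield alternatives of index two. -/
def IsIndexTwoMember (_hF : Fintype.card F = q ^ 2) (H : Subgroup (GL (Fin 4) F)) : Prop :=
  (Odd q ∧ ∃ (F₀ : Subfield F) (P : GL (Fin 4) F), Fintype.card F = Nat.card F₀ ^ 2 ∧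
    IsFormRationalStructure (Cfsg.hermForm 4 F q) F₀ 1 P ∧
    H = subfieldSubgroup F₀ P ⊓ (Cfsg.GU 4 F q ⊓ specialLinear (Fin 4) F)) ∨
  (∃ (F₀ : Subfield F) (P : GL (Fin 4) F) (ζ : F), Fintype.card F = Nat.card F₀ ^ 2 ∧ ζ ≠ 0 ∧
    ζ + ζ ^ q = 0 ∧ IsFormRationalStructure (Cfsg.hermForm 4 F q) F₀ ζ P ∧
    (∀ u : Fin 4 → F, (∀ i, u i ∈ F₀) → Cfsg.hermForm 4 F q
      ((P : Matrix (Fin 4) (Fin 4) F) *ᵥ u) ((P : Matrix (Fin 4) (Fin 4) F) *ᵥ u) = 0) ∧
    H = subfieldSubgroup F₀ P ⊓ (Cfsg.GU 4 F q ⊓ specialLinear (Fin 4) F))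

/-- A group inside a wreath product of two factors of dimension two. -/
theorem wreath_case {H : Subgroup (GL (Fin 4) F)}
    (hH : IsMaximalIn (Cfsg.GU 4 F q ⊓ specialLinear (Fin 4) F) H) {t : ℕ} (ht : 0 < t)
    {e : Fin 4 ≃ (Fin t → Fin 2)} {P : GL (Fin 4) F}
    (hcl : IsProductGram (Cfsg.hermForm 4 F q) e P) (hle : H ≤ tensorWreathSubgroup 2 t e P) :
    IsIndexTwoMember hF H := by
  have hle' := le_inf hle (hH.1.le.trans inf_le_left)
  rcases wreath_two_subfield_data hF ht hcl with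
    ⟨hq, F₀, P₁, hc, hr, h⟩ | ⟨F₀, P₁, ζ, hc, hz, htr, hr, hvan, h⟩
  · exact Or.inl ⟨hq, F₀, P₁, hc, hr, eq_inf_of_isMaximalIn hH ((hle'.trans h).trans inf_le_left)
      (AschPrime.not_le_subfieldSubgroup hF (by norm_num) (ne_top_of_card_sq hc) _)⟩
  · exact Or.inr ⟨F₀, P₁, ζ, hc, hz, htr, hr, hvan,
      eq_inf_of_isMaximalIn hH ((hle'.trans h).trans inf_le_left)
        (AschPrime.not_le_subfieldSubgroup hF (by norm_num) (ne_top_of_card_sq hc) _)⟩

/-- The tensor configuration. -/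
theorem tensor_case {H N : Subgroup (GL (Fin 4) F)}
    (hH : IsMaximalIn (Cfsg.GU 4 F q ⊓ specialLinear (Fin 4) F) H) (hNH : N ≤ H) {d k : ℕ}
    {e : Fin 4 ≃ Fin d × Fin k} {P : GL (Fin 4) F} (hT : TensorData H N d k e P) :
    IsIndexTwoMember hF H := by
  have hd := hT.two_le_left
  have hk := hT.two_le_right
  have hcard : d * k = 4 := by simpa using (Fintype.card_congr e).symm
  obtain rfl : d = 2 := by nlinarith
  obtain rfl : k = 2 := by omega
  set σ := (qFrob hF : F ≃+* F).toRingHom with hσdef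
  have hf := herm_rform (n := 4) hF
  have hNU : N ≤ Cfsg.GU 4 F q := hNH.trans (hH.1.le.trans inf_le_left)
  have hcl : ∀ M : Matrix (Fin 2) (Fin 2) F, ∃ M' : Matrix (Fin 2) (Fin 2) F,
      Forms.IsAdj (Cfsg.hermForm 4 F q) (tconj e P (M ⊗ₖ (1 : Matrix (Fin 2) (Fin 2) F)))
        (tconj e P (M' ⊗ₖ (1 : Matrix (Fin 2) (Fin 2) F))) := by
    intro M
    obtain ⟨Y, hY, hadj⟩ := Forms.closed_adjoin hf (fun g hg => hNU hg) _ ((hT.mem_iff _).2 ⟨M, rfl⟩)
    obtain ⟨M', rfl⟩ := (hT.mem_iff Y).1 hY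
    exact ⟨M', hadj⟩
  obtain ⟨X, C, hX, hC, hpull⟩ := Forms.exists_pullGram_eq_kronecker hf hcl
  let ε : Fin 2 × Fin 2 ≃ (Fin 2 → Fin 2) :=
    { toFun := fun p => ![p.1, p.2]
      invFun := fun f => (f 0, f 1)
      left_inv := fun p => by simp
      right_inv := fun f => by ext i; fin_cases i <;> simp }
  have hprod : IsProductGram (Cfsg.hermForm 4 F q) (e.trans ε) P := by
    refine ⟨1, ![X, C], one_ne_zero, fun i => by fin_cases i <;> simpa, ?_⟩
    ext x y
    have h := congrFun (congrFun hpull (x 0, x 1)) (y 0, y 1)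
    have hs : ∀ z : Fin 2 → Fin 2, Forms.powEmb (e.trans ε) P (Pi.single z 1) =
        Forms.emb e P (Pi.single (z 0, z 1) 1) := by
      intro z
      rw [Forms.powEmb, Forms.emb]
      congr 1
      funext a
      simp only [Function.comp_apply, Equiv.trans_apply, Pi.single_apply]
      refine if_congr ?_ rfl rfl
      constructor
      · intro h1; rw [← h1]; simp [ε]
      · intro h1; rw [h1]; ext i; fin_cases i <;> simp [ε]
    rw [Forms.powGram, hs, hs]
    rw [Forms.pullGram] at h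
    rw [h]
    simp [kroneckerPow, Fin.prod_univ_two, Matrix.kroneckerMap_apply]
  refine wreath_case hF hH (by norm_num) hprod (hT.le_tensor.trans ?_)
  intro g hg
  obtain ⟨a, b, hab⟩ := (mem_tensorProductSubgroup_iff e P g).1 hg
  refine Forms.mem_tensorWreath_iff.2 ⟨![a, b], 1, ?_⟩
  rw [hab, permPow_one, Matrix.mul_one, tconj_apply, tconj_apply]
  congr 2
  ext i j
  simp [kroneckerPow, Fin.prod_univ_two, Matrix.kroneckerMap_apply, ε]

/-- The tensor-induced configuration. -/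
theorem commuting_case {H : Subgroup (GL (Fin 4) F)} {d : ℕ}
    {S : Finset (Subalgebra F (Matrix (Fin 4) (Fin 4) F))}
    (hH : IsMaximalIn (Cfsg.GU 4 F q ⊓ specialLinear (Fin 4) F) H) (h : CommutingData H d S) :
    IsIndexTwoMember hF H := by
  have hHU : H ≤ Cfsg.GU 4 F q := hH.1.le.trans inf_le_left
  obtain rfl : d = 2 := by
    have h4 := h.card_eq
    rw [Fintype.card_fin] at h4
    have h2 := h.two_le
    by_contra hne
    have : 3 ^ 2 ≤ d ^ S.card := Nat.pow_le_pow_of_le (by omega) h.two_le_card |>.trans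
      (Nat.pow_le_pow_left (by omega) _)
    omega
  obtain ⟨e, P, hle, hfac⟩ := h.exists_le_tensorWreath_factors
  have hf := herm_rform (n := 4) hF
  have hHH : ⁅H, H⁆ ≤ H := Subgroup.commutator_le.2 fun a ha b hb => by
    rw [commutatorElement_def]
    exact H.mul_mem (H.mul_mem (H.mul_mem ha hb) (H.inv_mem ha)) (H.inv_mem hb)
  have hcl : Forms.FactorClosed (Cfsg.hermForm 4 F q) e P := by
    intro i M
    obtain ⟨A, hA, hmem⟩ := hfac i
    obtain ⟨D, hD, rfl⟩ := h.generated A hA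
    obtain ⟨Y, hY, hadj⟩ := Forms.closed_adjoin hf (fun g hg => hHU (hHH (hD hg))) _ ((hmem _).2 ⟨M, rfl⟩)
    obtain ⟨M', rfl⟩ := (hmem Y).1 hY
    exact ⟨M', hadj⟩
  exact wreath_case hF hH (lt_of_lt_of_le two_pos h.two_le_card)
    (Forms.exists_powGram_eq_kroneckerPow hf hcl) hle

/-- The three subfield alternatives. -/
def IsSubfieldMember (hF : Fintype.card F = q ^ 2) (H : Subgroup (GL (Fin 4) F)) : Prop :=
  (∃ (F₀ : Subfield F) (r : ℕ) (P : GL (Fin 4) F), r.Prime ∧ Odd r ∧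
    Fintype.card F = Nat.card F₀ ^ r ∧ IsFormRationalStructure (Cfsg.hermForm 4 F q) F₀ 1 P ∧
    H = subfieldSubgroup F₀ P ⊓ (Cfsg.GU 4 F q ⊓ specialLinear (Fin 4) F)) ∨
  IsIndexTwoMember hF H

/-- A normal absolutely irreducible subgroup realised over a proper subfield. -/
theorem subfield_member {H P : Subgroup (GL (Fin 4) F)}
    (hH : IsMaximalIn (Cfsg.GU 4 F q ⊓ specialLinear (Fin 4) F) H) (hP : P ≤ H)
    (hnorm : ∀ h ∈ H, ∀ x ∈ P, h * x * h⁻¹ ∈ P) (hirr : ActsAbsolutelyIrreducibly (matrixSet P))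
    {F₀ : Subfield F} (h0 : F₀ ≠ ⊤) (hreal : RealisableOver F₀ (matrixSet P)) :
    IsSubfieldMember hF H :=
  (Unitary.subfield_case hF (by norm_num) hH hP hnorm hirr h0 hreal).imp_right id

/-- The abelian configuration. -/
theorem abelian_case {H N : Subgroup (GL (Fin 4) F)} {r : ℕ}
    (hH : IsMaximalIn (Cfsg.GU 4 F q ⊓ specialLinear (Fin 4) F) H) (h : AbelianData H N r) :
    IsSubfieldMember hF H ∨
    ∃ (p : ℕ) (R : Subgroup (GL (Fin 4) F)), p.Prime ∧ q = p ∧ p % 4 = 3 ∧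
      IsSymplecticTypeGroup 2 R ∧ ActsAbsolutelyIrreducibly (matrixSet R) ∧
      R ≤ similarityGroup (Cfsg.hermForm 4 F q) ∧ Nat.card R = 64 ∧ Nat.card (Subgroup.center R) = 4 ∧
      H = subgroupNormalizer R ⊓ (Cfsg.GU 4 F q ⊓ specialLinear (Fin 4) F) := by
  classical
  have hhom : Odd r ∨ ∃ i : Fˣ, i ^ 2 = -1 := by
    obtain ⟨a, ha⟩ : IsSquare (-1 : F) := by
      rw [FiniteField.isSquare_neg_one_iff, hF, Nat.pow_mod]
      have := Nat.mod_lt q (show 0 < 4 by norm_num)
      interval_cases q % 4 <;> norm_num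
    have ha0 : a ≠ 0 := fun h0 => by
      rw [h0, mul_zero, neg_eq_zero] at ha
      exact one_ne_zero ha
    exact Or.inr ⟨Units.mk0 a ha0, Units.ext (by simp [sq, ha])⟩
  obtain ⟨R, r', j, u, hR⟩ := exists_coverGroup (by simp) h hhom
  have hd := hR.data
  have hHU : H ≤ Cfsg.GU 4 F q := hH.1.le.trans inf_le_left
  obtain ⟨p, k, hp, hchar, hq⟩ := exists_char_pow hF
  have := Fact.mk hp
  by_cases hex : ∃ d, 0 < d ∧ d < 2 * k ∧ r' ∣ p ^ d - 1
  · left
    obtain ⟨d, hd0, hd2, hdd⟩ := hex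
    have hcard : Fintype.card F = p ^ (2 * k) := by rw [hF, hq, ← pow_mul, mul_comm]
    let F₁ : Subfield F := RingHom.eqLocusField (iterateFrobenius F p d) (RingHom.id F)
    have hF₁ : ∀ x, x ∈ F₁ ↔ x ^ p ^ d = x := fun x => Iff.rfl
    have hne : F₁ ≠ ⊤ := by
      intro htop
      obtain ⟨g, hg⟩ := (inferInstance : IsCyclic Fˣ).exists_ofOrder_eq_natCard
      have h1 : (g : F) ^ p ^ d = g := (hF₁ _).mp (htop ▸ Subfield.mem_top _)
      have h2 : g ^ (p ^ d - 1) = 1 := by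
        refine mul_left_cancel (a := g) ?_
        rw [← pow_succ', Nat.sub_add_cancel (Nat.one_le_pow _ _ hp.pos), mul_one]
        exact Units.ext (by simpa using h1)
      have h3 := orderOf_dvd_of_pow_eq_one h2
      rw [hg, Nat.card_eq_fintype_card, Fintype.card_units, hcard] at h3
      have h4 : p ^ d < p ^ (2 * k) := Nat.pow_lt_pow_right hp.one_lt hd2
      have h5 : 1 < p ^ d := Nat.one_lt_pow hd0.ne' hp.one_lt
      have := Nat.le_of_dvd (by omega) h3
      omega
    obtain ⟨F₂, l, hle, hl, hF₂, hne₂⟩ := exists_subfield_prime_index hne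
    have hmem : ∀ c : Fˣ, scalarGL c ∈ R → (c : F) ∈ F₂ := by
      intro c hc
      refine hle ((hF₁ _).mpr ?_)
      have h1 : c ^ (p ^ d - 1) = 1 := by
        obtain ⟨m, hm⟩ := hdd; rw [hm, pow_mul, hd.scalar_pow c hc, one_pow]
      have h2 : c ^ p ^ d = c := by
        rw [← Nat.sub_add_cancel (Nat.one_le_pow d p hp.pos), pow_succ, h1, one_mul]
      rw [← Units.val_pow_eq_pow_val, h2]
    obtain ⟨B, hB⟩ := realisableOver_of_scalars_mem hd.absIrred hd.comm F₂ hl hF₂ hmem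
    have hsub := le_subfieldSubgroup_of_realisable hd.absIrred hd.normal hB
    have hHH : ⁅H, H⁆ ≤ H := Subgroup.commutator_le.2 fun a ha b hb => by
      rw [commutatorElement_def]
      exact H.mul_mem (H.mul_mem (H.mul_mem ha hb) (H.inv_mem ha)) (H.inv_mem hb)
    exact subfield_member hF hH hHH
      (fun g hg => conj_commutator_mem fun x hx => H.mul_mem (H.mul_mem hg hx) (H.inv_mem hg))
      (h.commutator_absIrred (by simp)) hne₂ (realisable_commutator hsub)
  right
  push Not at hex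
  have hn' : 4 = r ^ j := by simpa using hR.dim_eq
  have hj0 : j ≠ 0 := fun h0 => by rw [h0, pow_zero] at hn'; omega
  obtain rfl : r = 2 := by
    have h1 : r ∣ 2 ^ 2 := by
      rw [show (2 : ℕ) ^ 2 = r ^ j from hn']; exact dvd_pow_self r hj0
    exact (Nat.prime_dvd_prime_iff_eq h.prime Nat.prime_two).1 (h.prime.dvd_of_dvd_pow h1)
  obtain rfl : j = 2 :=
    Nat.pow_right_injective (le_refl 2) (hn'.symm.trans (show (4 : ℕ) = 2 ^ 2 by norm_num))
  obtain rfl : r' = 4 := by rw [hR.exp_eq]; rfl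
  have hp2 : p % 2 = 1 := by
    rcases hp.eq_two_or_odd with h2 | h2
    · exact absurd h2.symm (hR.prime_ne _ hchar)
    · exact h2
  have hk0 : k ≠ 0 := fun h0 => by
    have := one_lt_q hF; rw [hq, h0] at this; simp at this
  obtain rfl : k = 1 := by
    by_contra hk
    refine hex 2 (by norm_num) (by omega) ?_
    have h1 : p ^ 2 % 4 = 1 := by
      rw [Nat.pow_mod]
      have : p % 4 = 1 ∨ p % 4 = 3 := by omega
      rcases this with h | h <;> rw [h]
    omega
  rw [pow_one] at hq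
  have hp4 : p % 4 = 3 := by
    by_contra h3
    exact hex 1 one_pos (by omega) (by rw [pow_one]; omega)
  have hsim : R ≤ similarityGroup (Cfsg.hermForm 4 F q) := fun g hg => by
    refine (show N ⊔ scalars (Fin 4) F ≤ similarityGroup (Cfsg.hermForm 4 F q) from
      sup_le (fun x hx => ⟨1, fun u v => by
        rw [Units.val_one, one_mul]; exact hHU (h.le hx) u v⟩) ?_) ((hd.cover.mem_iff g).1 hg).1
    intro x hx
    obtain ⟨c, rfl⟩ := id hx
    refine ⟨c * c ^ q, fun u v => ?_⟩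
    show Cfsg.hermForm 4 F q ((scalarGL c).val *ᵥ u) ((scalarGL c).val *ᵥ v) = _
    rw [scalarGL_val, Matrix.smul_mulVec, Matrix.smul_mulVec, Matrix.one_mulVec, Matrix.one_mulVec,
      herm_smul_left, herm_smul_right hF, ← mul_assoc, Units.val_mul, Units.val_pow_eq_pow_val]
  exact ⟨p, R, hp, hq, hp4, hR.symplecticType, hd.absIrred, hsim, hR.card_eq.trans (by norm_num),
    hR.card_center, eq_inf_of_isMaximalIn hH (le_normalizer_of_forall_conj hd.normal)
      (unitary_not_le_normalizer hF hd.absIrred fun x hx y hy => hd.comm y hy x hx)⟩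

/-- Aschbacher's reduction for the special unitary group of dimension four. -/
theorem unitary_four_cases {H : Subgroup (GL (Fin 4) F)}
    (hH : IsMaximalIn (Cfsg.GU 4 F q ⊓ specialLinear (Fin 4) F) H) :
    (∃ W : Submodule F (Fin 4 → F), W ≠ ⊥ ∧ IsTotallySingularFor (Cfsg.hermForm 4 F q) W ∧
      H = subspaceStabilizer W ⊓ (Cfsg.GU 4 F q ⊓ specialLinear (Fin 4) F)) ∨
    (∃ W : Submodule F (Fin 4 → F), W ≠ ⊥ ∧ IsNondegenerateOn (Cfsg.hermForm 4 F q) W ∧
      2 * finrank F W < 4 ∧ H = subspaceStabilizer W ⊓ (Cfsg.GU 4 F q ⊓ specialLinear (Fin 4) F)) ∨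
    (q ≠ 3 ∧ ∃ D : Fin 4 → Submodule F (Fin 4 → F),
      IsNondegenerateMDecomposition (Cfsg.hermForm 4 F q) 1 D ∧
      H = decompositionStabilizer D ⊓ (Cfsg.GU 4 F q ⊓ specialLinear (Fin 4) F)) ∨
    (3 ≤ q ∧ ∃ D : Fin 2 → Submodule F (Fin 4 → F),
      IsNondegenerateMDecomposition (Cfsg.hermForm 4 F q) 2 D ∧
      H = decompositionStabilizer D ⊓ (Cfsg.GU 4 F q ⊓ specialLinear (Fin 4) F)) ∨
    (4 ≤ q ∧ ∃ D : Fin 2 → Submodule F (Fin 4 → F), IsMDecomposition 2 D ∧
      (∀ i, IsTotallySingularFor (Cfsg.hermForm 4 F q) (D i)) ∧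
      H = decompositionStabilizer D ⊓ (Cfsg.GU 4 F q ⊓ specialLinear (Fin 4) F)) ∨
    IsSubfieldMember hF H ∨
    (∃ (p : ℕ) (R : Subgroup (GL (Fin 4) F)), p.Prime ∧ q = p ∧ p % 4 = 3 ∧
      IsSymplecticTypeGroup 2 R ∧ ActsAbsolutelyIrreducibly (matrixSet R) ∧
      R ≤ similarityGroup (Cfsg.hermForm 4 F q) ∧ Nat.card R = 64 ∧ Nat.card (Subgroup.center R) = 4 ∧
      H = subgroupNormalizer R ⊓ (Cfsg.GU 4 F q ⊓ specialLinear (Fin 4) F)) ∨
    InUnitaryResidualClass H := by
  have hHU : H ≤ Cfsg.GU 4 F q := hH.1.le.trans inf_le_left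
  have hq1 := one_lt_q hF
  have hlines : ∀ D : Fin 4 → Submodule F (Fin 4 → F),
      IsNondegenerateMDecomposition (Cfsg.hermForm 4 F q) 1 D → H ≤ decompositionStabilizer D →
      (q ≠ 3 ∧ ∃ D : Fin 4 → Submodule F (Fin 4 → F),
        IsNondegenerateMDecomposition (Cfsg.hermForm 4 F q) 1 D ∧
        H = decompositionStabilizer D ⊓ (Cfsg.GU 4 F q ⊓ specialLinear (Fin 4) F)) ∨
      (∃ (p : ℕ) (R : Subgroup (GL (Fin 4) F)), p.Prime ∧ q = p ∧ p % 4 = 3 ∧
        IsSymplecticTypeGroup 2 R ∧ ActsAbsolutelyIrreducibly (matrixSet R) ∧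
        R ≤ similarityGroup (Cfsg.hermForm 4 F q) ∧ Nat.card R = 64 ∧ Nat.card (Subgroup.center R) = 4 ∧
        H = subgroupNormalizer R ⊓ (Cfsg.GU 4 F q ⊓ specialLinear (Fin 4) F)) := by
    intro D hD hle
    by_cases hq : q = 3
    · exact Or.inr (lines_three hF hq hH hD hle)
    · exact Or.inl ⟨hq, D, hD, eq_inf_of_isMaximalIn hH hle
        (AschPrime.not_le_decompositionStabilizer hF hD (by norm_num) (Or.inr le_rfl))⟩
  have hplanes : ∀ D : Fin 2 → Submodule F (Fin 4 → F),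
      IsNondegenerateMDecomposition (Cfsg.hermForm 4 F q) 2 D → H ≤ decompositionStabilizer D →
      (q ≠ 3 ∧ ∃ D : Fin 4 → Submodule F (Fin 4 → F),
        IsNondegenerateMDecomposition (Cfsg.hermForm 4 F q) 1 D ∧
        H = decompositionStabilizer D ⊓ (Cfsg.GU 4 F q ⊓ specialLinear (Fin 4) F)) ∨
      (3 ≤ q ∧ ∃ D : Fin 2 → Submodule F (Fin 4 → F),
        IsNondegenerateMDecomposition (Cfsg.hermForm 4 F q) 2 D ∧
        H = decompositionStabilizer D ⊓ (Cfsg.GU 4 F q ⊓ specialLinear (Fin 4) F)) := by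
    intro D hD hle
    by_cases hq : 3 ≤ q
    · exact Or.inr ⟨hq, D, hD, eq_inf_of_isMaximalIn hH hle (not_le_decomposition hF hD le_rfl)⟩
    · obtain ⟨D', hD', hle'⟩ := planes_lines hF (by omega) hD
      exact Or.inl ⟨by omega, D', hD', eq_inf_of_isMaximalIn hH (fun g hg => hle' g (hle hg) (hHU hg))
        (AschPrime.not_le_decompositionStabilizer hF hD' (by norm_num) (Or.inr le_rfl))⟩
  by_cases hirr : ActsIrreducibly (matrixSet H)
  swap
  · simp only [ActsIrreducibly, not_forall, not_or] at hirr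
    obtain ⟨W, hW, h0, h1⟩ := hirr
    rcases Unitary.maximal_reducible hF (by norm_num) hH h0 h1
      (fun g hg => Aschbacher.mem_subspaceStabilizer_of_mapsTo fun v hv => hW _ ⟨g, hg, rfl⟩ ⟨v, hv, rfl⟩) with
      h | h | ⟨m, D, hD, hm, hHD⟩
    · exact Or.inl h
    · exact Or.inr (Or.inl h)
    · obtain rfl : m = 2 := by omega
      rcases hplanes D hD (hHD.le.trans inf_le_left) with h | h
      · exact Or.inr (Or.inr (Or.inl h))
      · exact Or.inr (Or.inr (Or.inr (Or.inl h)))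
  have hf := herm_rform (n := 4) hF
  rcases normal_cases hirr with ⟨N, hN, t, ⟨S⟩⟩ | ⟨N, hN, hfl, hbot⟩ | ⟨N, d, k, e, P, hN, hT⟩ | hall
  · have hcl := (Forms.closed_adjoin hf (N := N) fun g hg => hHU (hN.le hg)).centre hf
    rcases Forms.frame_form_cases hf (fun g hg => ⟨1, one_ne_zero, fun u v => by rw [one_mul]; exact hHU hg u v⟩)
      S.toFrame (Forms.idemSystem_adj hf (centreAlg_comm_all _) hcl S) with
      ⟨s, m, D, hD, hsm, hle⟩ | ⟨m, D, hD, h2m, hts, hle⟩
    · rw [Fintype.card_fin] at hsm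
      have hs2 := hD.decomp.two_le
      have hm0 := hD.decomp.pos
      obtain ⟨rfl, rfl⟩ | ⟨rfl, rfl⟩ : (s = 4 ∧ m = 1) ∨ (s = 2 ∧ m = 2) := by
        have : s ≤ 4 := by nlinarith
        interval_cases s <;> omega
      · rcases hlines D hD hle with h | h
        · exact Or.inr (Or.inr (Or.inl h))
        · exact Or.inr <| Or.inr <| Or.inr <| Or.inr <| Or.inr <| Or.inr <| Or.inl h
      · rcases hplanes D hD hle with h | h
        · exact Or.inr (Or.inr (Or.inl h))
        · exact Or.inr (Or.inr (Or.inr (Or.inl h)))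
    · rw [Fintype.card_fin] at h2m
      obtain rfl : m = 2 := by omega
      by_cases hq : 4 ≤ q
      · exact Or.inr <| Or.inr <| Or.inr <| Or.inr <| Or.inl ⟨hq, D, hD, hts,
          eq_inf_of_isMaximalIn hH hle (not_le_pair hF hD le_rfl hts)⟩
      · have hK : ∀ c : F, c ≠ 0 → c ^ q = c → c * c = 1 := by
          intro c hc h
          rcases (show q = 2 ∨ q = 3 by omega) with rfl | rfl
          · rw [sq] at h
            rw [mul_eq_left₀ hc] at h
            rw [h, mul_one]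
          · exact mul_right_cancel₀ hc (by linear_combination h)
        obtain ⟨F₀, P, ζ, hc, hz, htr, hr, hvan, hsub⟩ := pair_subfield hF hK hD hts
        exact Or.inr <| Or.inr <| Or.inr <| Or.inr <| Or.inr <| Or.inl <| Or.inr <| Or.inr
          ⟨F₀, P, ζ, hc, hz, htr, hr, hvan, eq_inf_of_isMaximalIn hH ((le_inf hle hH.1.le).trans hsub)
            (AschPrime.not_le_subfieldSubgroup hF (by norm_num) (ne_top_of_card_sq hc) _)⟩
  · obtain ⟨r, hr, hrn, -, hK, -⟩ := Centre.exists_prime_subfield (normalises_envAlg hN.normal).centreAlg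
      (centreAlg_comm_all _) hfl hbot
    have hcl := Forms.closed_powFixed hf (centreAlg_comm_all _)
      ((Forms.closed_adjoin hf (N := N) fun g hg => hHU (hN.le hg)).centre hf) r
    rw [Fintype.card_fin] at hrn
    obtain rfl : r = 2 :=
      (Nat.prime_dvd_prime_iff_eq hr Nat.prime_two).1 (hr.dvd_of_dvd_pow (n := 2) hrn)
    exact (Forms.false_of_unitary_deg_two hf (qFrob_ne_id hF) hK hcl).elim
  · exact Or.inr <| Or.inr <| Or.inr <| Or.inr <| Or.inr <| Or.inl <| Or.inr (tensor_case hF hH hN.le hT)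
  refine Or.inr <| Or.inr <| Or.inr <| Or.inr <| Or.inr ?_
  rcases normal_structure hall (not_le_scalars_of_irreducible hirr (by simp)) with
    ⟨N, r, hA⟩ | ⟨d, S, hC⟩ | ⟨P, hP⟩
  · rcases abelian_case hF hH hA with h | h
    · exact Or.inl h
    · exact Or.inr (Or.inl h)
  · exact Or.inl (Or.inr (commuting_case hF hH hC))
  by_cases hreal : ∃ F₀ : Subfield F, F₀ ≠ ⊤ ∧ RealisableOver F₀ (matrixSet P)
  · obtain ⟨F₀, h0, hr⟩ := hreal
    exact Or.inl (subfield_member hF hH hP.le hP.normal hP.absIrred h0 hr)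
  refine Or.inr <| Or.inr ⟨P, hP.isResidualCore fun F₀ h0 h => hreal ⟨F₀, h0, h⟩, ?_, ?_⟩
  · rintro ⟨Q, hQ, hfix⟩
    exact hreal ⟨_, fixedField_ne_top hF,
      realisableOver_fixed_of_quad hF (by norm_num) hP.absIrred (hP.le.trans hHU) hQ hfix⟩
  · rintro ⟨f, hf', hfix⟩
    exact hreal ⟨_, fixedField_ne_top hF, realisableOver_fixed_of_bilinear hF (by norm_num) hP.absIrred
      (hP.le.trans hHU) hf'.bilinear hf'.nondegenerate hfix⟩

end CfsgLib.AschFour
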